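import Cfsg.Agent.Char.Berger2
import Cfsg.Agent.Char.Gallagher

/-!
# The covering group in Berger's theorem (owner: helper15)
-/

set_option autoImplicit false

namespace Cfsg.Agent.Char.BG

open Cfsg Cfsg.Agent.Char Cfsg.Agent.CharBase Cfsg.Agent.Char.GD Cfsg.Agent.Char.MT
open scoped ComplexConjugate

universe u v

section Defs

variable {G : Type u} [Group G] (L M H : Subgroup G) [hL : L.Normal] [hM : M.Normal]
  {V : Type v} [AddCommGroup V] [Module ℂ V] (ρ : Representation ℂ L V)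

/-- The group of triples `(g, h, t)` with `g h⁻¹ ∈ M`, `t` intertwining `ρ` and `ρ^h`, `det t = 1`. -/
def twGrp : Subgroup (G × H × (Module.End ℂ V)ˣ) where
  carrier := {p | p.1 * (p.2.1 : G)⁻¹ ∈ M ∧
    (∀ n : L, (p.2.2 : Module.End ℂ V) * ρ n
      = ρ ⟨(p.2.1 : G) * n * (p.2.1 : G)⁻¹, hL.conj_mem n n.2 _⟩ * p.2.2) ∧
    LinearMap.det (p.2.2 : Module.End ℂ V) = 1}
  mul_mem' := by
    rintro ⟨g, h, t⟩ ⟨g', h', t'⟩ ⟨h1, h2, h3⟩ ⟨h1', h2', h3'⟩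
    simp only at h1 h2 h3 h1' h2' h3'
    refine ⟨?_, ?_, ?_⟩
    · have e1 : g * g' * ((h : G) * (h' : G))⁻¹ = (g * (g' * (h' : G)⁻¹) * g⁻¹) * (g * (h : G)⁻¹) := by group
      simp only [Prod.mk_mul_mk, Subgroup.coe_mul]
      rw [e1]
      exact M.mul_mem (hM.conj_mem _ h1' _) h1
    · intro n
      simp only [Prod.mk_mul_mk, Subgroup.coe_mul, Units.val_mul]
      rw [mul_assoc, h2' n, ← mul_assoc, h2, mul_assoc]
      congr 2
      apply Subtype.ext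
      simp only
      group
    · simp only [Prod.mk_mul_mk, Units.val_mul]
      rw [map_mul, h3, h3', mul_one]
  one_mem' := by
    refine ⟨?_, ?_, ?_⟩
    · simp
    · intro n
      simp
    · simp
  inv_mem' := by
    rintro ⟨g, h, t⟩ ⟨h1, h2, h3⟩
    simp only at h1 h2 h3
    refine ⟨?_, ?_, ?_⟩
    · have e1 : g⁻¹ * ((h : G)⁻¹)⁻¹ = (h : G)⁻¹ * (g * (h : G)⁻¹)⁻¹ * ((h : G)⁻¹)⁻¹ := by group
      simp only [Prod.inv_mk, InvMemClass.coe_inv]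
      rw [e1]
      exact hM.conj_mem _ (M.inv_mem h1) _
    · intro n
      simp only [Prod.inv_mk, InvMemClass.coe_inv]
      have e2 := h2 ⟨(h : G)⁻¹ * n * ((h : G)⁻¹)⁻¹, hL.conj_mem n n.2 _⟩
      have e3 : (⟨(h : G) * ((⟨(h : G)⁻¹ * n * ((h : G)⁻¹)⁻¹, hL.conj_mem n n.2 _⟩ : L) : G) * (h : G)⁻¹,
          hL.conj_mem _ (⟨(h : G)⁻¹ * n * ((h : G)⁻¹)⁻¹, hL.conj_mem n n.2 _⟩ : L).2 _⟩ : L) = n := by
        apply Subtype.ext
        simp only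
        group
      rw [e3] at e2
      exact units_conj t _ _ e2
    · simp only [Prod.inv_mk]
      have e1 : LinearMap.det ((t : Module.End ℂ V) * ((t⁻¹ : (Module.End ℂ V)ˣ) : Module.End ℂ V)) = 1 := by
        rw [Units.mul_inv, map_one]
      rw [map_mul, h3, one_mul] at e1
      exact e1

variable {L M H} {ρ}

/-- First projection. -/
def prG : twGrp L M H ρ →* G := (MonoidHom.fst G _).comp (twGrp L M H ρ).subtype

theorem prG_apply (x : twGrp L M H ρ) : prG x = x.1.1 := rfl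

theorem mem_L_of (hHM : H ⊓ M ≤ L) (x : (H.comap (prG (L := L) (M := M) (H := H) (ρ := ρ)))) :
    (x : twGrp L M H ρ).1.1 * (((x : twGrp L M H ρ).1.2.1 : H) : G)⁻¹ ∈ L := by
  apply hHM
  exact ⟨H.mul_mem x.2 (H.inv_mem (x : twGrp L M H ρ).1.2.1.2), (x : twGrp L M H ρ).2.1⟩

/-- The canonical extension of `ρ`. -/
def hatRep (hHM : H ⊓ M ≤ L) :
    Representation ℂ (H.comap (prG (L := L) (M := M) (H := H) (ρ := ρ))) V where
  toFun x := ρ ⟨_, mem_L_of hHM x⟩ * ((x : twGrp L M H ρ).1.2.2 : Module.End ℂ V)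
  map_one' := by
    have h1 : (⟨_, mem_L_of hHM (1 : (H.comap (prG (L := L) (M := M) (H := H) (ρ := ρ))))⟩ : L) = 1 := by
      apply Subtype.ext
      simp
    rw [h1, map_one]
    simp
  map_mul' := by
    rintro ⟨⟨⟨g, h, t⟩, hx⟩, hg⟩ ⟨⟨⟨g', h', t'⟩, hx'⟩, hg'⟩
    have h1 := mem_L_of hHM ⟨⟨⟨g, h, t⟩, hx⟩, hg⟩
    have h1' := mem_L_of hHM ⟨⟨⟨g', h', t'⟩, hx'⟩, hg'⟩
    change ρ ⟨g * g' * ((h : G) * (h' : G))⁻¹, _⟩ * ((t : Module.End ℂ V) * t')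
      = ρ ⟨g * (h : G)⁻¹, h1⟩ * t * (ρ ⟨g' * (h' : G)⁻¹, h1'⟩ * t')
    have h2 := hx.2.1 ⟨g' * (h' : G)⁻¹, h1'⟩
    simp only at h2
    have h3 : ρ ⟨g * (h : G)⁻¹, h1⟩ * t * (ρ ⟨g' * (h' : G)⁻¹, h1'⟩ * t')
        = ρ ⟨g * (h : G)⁻¹, h1⟩ * (t * ρ ⟨g' * (h' : G)⁻¹, h1'⟩) * t' := by
      simp only [mul_assoc]
    have h4 : ∀ (a b c : L), a = b * c → ρ a * ((t : Module.End ℂ V) * t') = ρ b * (ρ c * t) * t' := by
      intro a b c habc
      rw [habc, map_mul]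
      simp only [mul_assoc]
    rw [h3, h2]
    apply h4
    apply Subtype.ext
    simp only [Subgroup.coe_mul]
    group

theorem hatRep_apply (hHM : H ⊓ M ≤ L) (x : (H.comap (prG (L := L) (M := M) (H := H) (ρ := ρ)))) :
    hatRep hHM x = ρ ⟨_, mem_L_of hHM x⟩ * ((x : twGrp L M H ρ).1.2.2 : Module.End ℂ V) := rfl

/-- The embedding of `L`. -/
def embL (hLM : L ≤ M) (hLH : L ≤ H) :
    L →* (H.comap (prG (L := L) (M := M) (H := H) (ρ := ρ)) : Subgroup (twGrp L M H ρ)) where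
  toFun l := ⟨⟨⟨l, 1, 1⟩, by
    refine ⟨?_, ?_, ?_⟩
    · simpa using hLM l.2
    · intro n
      simp
    · simp⟩, hLH l.2⟩
  map_one' := rfl
  map_mul' x y := by
    apply Subtype.ext
    apply Subtype.ext
    simp

theorem hatRep_embL (hHM : H ⊓ M ≤ L) (hLM : L ≤ M) (hLH : L ≤ H) :
    MonoidHom.comp (hatRep (ρ := ρ) hHM) (embL hLM hLH) = ρ := by
  ext l : 1
  change ρ _ * _ = ρ l
  have h1 : (⟨_, mem_L_of hHM (embL (ρ := ρ) hLM hLH l)⟩ : L) = l := by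
    apply Subtype.ext
    change (l : G) * ((1 : H) : G)⁻¹ = l
    simp
  rw [h1]
  exact mul_one _

/-- The retraction `(g, h, t) ↦ (h, h, t)`. -/
def retr : twGrp L M H ρ →* (H.comap (prG (L := L) (M := M) (H := H) (ρ := ρ)) : Subgroup (twGrp L M H ρ)) where
  toFun x := ⟨⟨⟨x.1.2.1, x.1.2.1, x.1.2.2⟩, by
    refine ⟨?_, x.2.2.1, x.2.2.2⟩
    simp⟩, x.1.2.1.2⟩
  map_one' := rfl
  map_mul' x y := rfl

theorem eq_embL_mul_retr (hHM : H ⊓ M ≤ L) (hLM : L ≤ M) (hLH : L ≤ H)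
    (x : (H.comap (prG (L := L) (M := M) (H := H) (ρ := ρ)) : Subgroup (twGrp L M H ρ))) :
    x = embL hLM hLH ⟨_, mem_L_of hHM x⟩ * retr (x : twGrp L M H ρ) := by
  obtain ⟨⟨⟨g, h, t⟩, hx⟩, hg⟩ := x
  apply Subtype.ext
  apply Subtype.ext
  change (g, h, t) = (g * (h : G)⁻¹ * h, 1 * h, 1 * t)
  simp

theorem embL_range_normal (hLM : L ≤ M) (hLH : L ≤ H) :
    (embL (ρ := ρ) hLM hLH).range.Normal := by
  constructor
  rintro _ ⟨l, rfl⟩ ⟨⟨⟨g, h, t⟩, hx⟩, hg⟩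
  refine ⟨⟨g * l * g⁻¹, hL.conj_mem _ l.2 _⟩, ?_⟩
  apply Subtype.ext
  apply Subtype.ext
  change (g * (l : G) * g⁻¹, (1 : H), (1 : (Module.End ℂ V)ˣ)) = (g * l * g⁻¹, h * 1 * h⁻¹, t * 1 * t⁻¹)
  simp

end Defs

section Fin

variable {G : Type u} [Group G] [Finite G] (L M H : Subgroup G) [hL : L.Normal] [hM : M.Normal]
  {V : Type v} [AddCommGroup V] [Module ℂ V] [FiniteDimensional ℂ V] {ρ : Representation ℂ L V}

theorem exists_twist_det (hρ : ρ.IsIrreducible) (hinv : ∀ g : G, cj L g ρ.character = ρ.character) :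
    ∃ T : G → (Module.End ℂ V)ˣ, (∀ (g : G) (n : L), (T g : Module.End ℂ V) * ρ n
      = ρ ⟨g * n * g⁻¹, hL.conj_mem (n : G) n.2 g⟩ * T g) ∧
      ∀ g, LinearMap.det (T g : Module.End ℂ V) = 1 := by
  obtain ⟨T, hT⟩ := exists_twist L ρ hρ hinv
  have hnt := nontrivial_of_irreducible_rep ρ hρ
  have hn : Module.finrank ℂ V ≠ 0 := Module.finrank_pos.ne'
  have hd : ∀ g, LinearMap.det (T g : Module.End ℂ V) ≠ 0 := by
    intro g
    have h1 : IsUnit (LinearMap.det (T g : Module.End ℂ V)) := (T g).isUnit.map LinearMap.det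
    exact h1.ne_zero
  have h1 : ∀ g, ∃ c : ℂ, c ^ Module.finrank ℂ V = (LinearMap.det (T g : Module.End ℂ V))⁻¹ := fun g =>
    IsAlgClosed.exists_pow_nat_eq _ (Nat.pos_of_ne_zero hn)
  choose c hc using h1
  have hc0 : ∀ g, c g ≠ 0 := by
    intro g h
    have h2 := hc g
    rw [h, zero_pow hn] at h2
    exact (inv_ne_zero (hd g)) h2.symm
  refine ⟨fun g => ⟨c g • (T g : Module.End ℂ V), (c g)⁻¹ • ((T g)⁻¹ : (Module.End ℂ V)ˣ), ?_, ?_⟩, ?_, ?_⟩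
  · rw [smul_mul_smul_comm, mul_inv_cancel₀ (hc0 g), Units.mul_inv, one_smul]
  · rw [smul_mul_smul_comm, inv_mul_cancel₀ (hc0 g), Units.inv_mul, one_smul]
  · intro g n
    simp only
    rw [smul_mul_assoc, hT.inter g n, mul_smul_comm]
  · intro g
    simp only
    rw [LinearMap.det_smul, hc, inv_mul_cancel₀ (hd g)]

omit [Finite G] in
/-- Two intertwiners differ by a scalar. -/
theorem exists_smul_of_inter (hρ : ρ.IsIrreducible) {h : G} {s : Module.End ℂ V} {t : (Module.End ℂ V)ˣ}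
    (ht : ∀ n : L, (t : Module.End ℂ V) * ρ n = ρ ⟨h * n * h⁻¹, hL.conj_mem (n : G) n.2 h⟩ * t)
    (hs : ∀ n : L, s * ρ n = ρ ⟨h * n * h⁻¹, hL.conj_mem (n : G) n.2 h⟩ * s) :
    ∃ c : ℂ, s = c • (t : Module.End ℂ V) := by
  have h1 : ∀ n : L, (((t⁻¹ : (Module.End ℂ V)ˣ) : Module.End ℂ V) * s) * ρ n
      = ρ n * (((t⁻¹ : (Module.End ℂ V)ˣ) : Module.End ℂ V) * s) := by
    intro n
    rw [mul_assoc, hs, ← mul_assoc, units_conj t _ _ (ht n), mul_assoc]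
  obtain ⟨c, hc⟩ := exists_smul_one_of_commute ρ hρ _ h1
  refine ⟨c, ?_⟩
  have h2 : s = (t : Module.End ℂ V) * (((t⁻¹ : (Module.End ℂ V)ˣ) : Module.End ℂ V) * s) := by
    rw [← mul_assoc, Units.mul_inv, one_mul]
  rw [h2, hc]
  simp

theorem twGrp_finite (hρ : ρ.IsIrreducible) (hinv : ∀ g : G, cj L g ρ.character = ρ.character) :
    Finite (twGrp L M H ρ) := by
  classical
  obtain ⟨T, hT, hdet⟩ := exists_twist_det L hρ hinv
  have hnt := nontrivial_of_irreducible_rep ρ hρ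
  have hn : Module.finrank ℂ V ≠ 0 := Module.finrank_pos.ne'
  have : NeZero (Module.finrank ℂ V) := ⟨hn⟩
  let F : G × H × rootsOfUnity (Module.finrank ℂ V) ℂ → G × H × (Module.End ℂ V)ˣ :=
    fun p => (p.1, p.2.1, (Units.map (algebraMap ℂ (Module.End ℂ V)).toMonoidHom (p.2.2 : ℂˣ)) * T p.2.1)
  have hfin : (Set.range F).Finite := Set.finite_range F
  refine Set.Finite.to_subtype (hfin.subset ?_)
  rintro ⟨g, h, t⟩ ⟨h1, h2, h3⟩
  simp only at h1 h2 h3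
  obtain ⟨c, hc⟩ := exists_smul_of_inter L hρ (hT h) h2
  have hcn : c ^ Module.finrank ℂ V = 1 := by
    rw [hc, LinearMap.det_smul, hdet, mul_one] at h3
    exact h3
  have hc0 : c ≠ 0 := by
    rintro rfl
    rw [zero_pow hn] at hcn
    exact zero_ne_one hcn
  refine ⟨(g, h, ⟨Units.mk0 c hc0, ?_⟩), ?_⟩
  · rw [mem_rootsOfUnity]
    ext
    simpa using hcn
  · simp only [F]
    congr 2
    ext1
    rw [hc, Units.val_mul]
    change algebraMap ℂ (Module.End ℂ V) c * _ = _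
    rw [← Algebra.smul_def]

variable {L M H}

theorem prG_surjective (hρ : ρ.IsIrreducible) (hinv : ∀ g : G, cj L g ρ.character = ρ.character)
    (hsup : H ⊔ M = ⊤) : Function.Surjective (prG (L := L) (M := M) (H := H) (ρ := ρ)) := by
  obtain ⟨T, hT, hdet⟩ := exists_twist_det L hρ hinv
  have := Fintype.ofFinite G
  intro g
  obtain ⟨y, hy, h, hh, rfl⟩ := exists_mul_of_sup_eq_top hsup g
  refine ⟨⟨⟨y * h, ⟨h, hh⟩, T h⟩, ?_, ?_, ?_⟩, rfl⟩
  · simpa using hy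
  · intro n
    exact hT h n
  · exact hdet h

omit [Finite G] in
/-- The canonical extension on the preimage of `L`. -/
theorem hatRep_of_mem (hρ : ρ.IsIrreducible) (hHM : H ⊓ M ≤ L) (hLM : L ≤ M) 
    (x : (H.comap (prG (L := L) (M := M) (H := H) (ρ := ρ)) : Subgroup (twGrp L M H ρ)))
    (hx : prG (x : twGrp L M H ρ) ∈ L) :
    ∃ (c : ℂ) (hh : (((x : twGrp L M H ρ).1.2.1 : H) : G) ∈ L),
      ((x : twGrp L M H ρ).1.2.2 : Module.End ℂ V) = c • ρ ⟨_, hh⟩ ∧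
      hatRep hHM x = c • ρ ⟨_, hx⟩ := by
  obtain ⟨⟨⟨g, h, t⟩, h1, h2, h3⟩, hg⟩ := x
  simp only at h1 h2 h3
  change g ∈ L at hx
  have hh : (h : G) ∈ L := by
    apply hHM
    refine ⟨h.2, ?_⟩
    have h4 : (h : G) = (g * (h : G)⁻¹)⁻¹ * g := by group
    rw [h4]
    exact M.mul_mem (M.inv_mem h1) (hLM hx)
  have hunit : IsUnit (ρ ⟨(h : G), hh⟩) := (Group.isUnit (⟨(h : G), hh⟩ : L)).map ρ
  have hinter : ∀ n : L, (hunit.unit : Module.End ℂ V) * ρ n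
      = ρ ⟨(h : G) * n * (h : G)⁻¹, hL.conj_mem (n : G) n.2 h⟩ * hunit.unit := by
    intro n
    rw [IsUnit.unit_spec, ← map_mul, ← map_mul]
    congr 1
    apply Subtype.ext
    simp
  obtain ⟨c, hc⟩ := exists_smul_of_inter L hρ hinter h2
  rw [IsUnit.unit_spec] at hc
  refine ⟨c, hh, hc, ?_⟩
  have key : ∀ a b : L, a * ⟨(h : G), hh⟩ = b → ρ a * (t : Module.End ℂ V) = c • ρ b := by
    intro a b hab
    rw [hc, mul_smul_comm, ← map_mul, hab]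
  apply key
  apply Subtype.ext
  simp only [Subgroup.coe_mul]
  exact inv_mul_cancel_right g (h : G)

/-- The character of the canonical extension is invariant on the preimage of `L`. -/
theorem hatRep_inv (hρ : ρ.IsIrreducible) (hinv : ∀ g : G, cj L g ρ.character = ρ.character)
    (hHM : H ⊓ M ≤ L) (hLM : L ≤ M) (hLH : L ≤ H)
    (γ x : twGrp L M H ρ) (hx : prG x ∈ L) (hx' : prG (γ * x * γ⁻¹) ∈ L) :
    (hatRep (ρ := ρ) hHM).character ⟨γ * x * γ⁻¹, hLH hx'⟩ = (hatRep (ρ := ρ) hHM).character ⟨x, hLH hx⟩ := by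
  obtain ⟨c, hh, hc, hcx⟩ := hatRep_of_mem hρ hHM hLM ⟨x, hLH hx⟩ hx
  have h1 : (hatRep (ρ := ρ) hHM).character ⟨x, hLH hx⟩ = c * ρ.character ⟨prG x, hx⟩ := by
    change LinearMap.trace ℂ V (hatRep hHM ⟨x, hLH hx⟩) = c * LinearMap.trace ℂ V (ρ ⟨prG x, hx⟩)
    rw [hcx, map_smul, smul_eq_mul]
  obtain ⟨⟨g, k, s⟩, k1, k2, k3⟩ := γ
  obtain ⟨⟨l, h, t⟩, h1', h2, h3⟩ := x
  simp only at k1 k2 k3 h1' h2 h3 hh hc
  change l ∈ L at hx
  change g * l * g⁻¹ ∈ L at hx'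
  rw [h1]
  change LinearMap.trace ℂ V (ρ ⟨(g * l * g⁻¹) * (((k : G) * h * (k : G)⁻¹))⁻¹, _⟩ *
    ((s : Module.End ℂ V) * t * ((s⁻¹ : (Module.End ℂ V)ˣ) : Module.End ℂ V))) = c * ρ.character ⟨l, hx⟩
  have e1 : (s : Module.End ℂ V) * t * ((s⁻¹ : (Module.End ℂ V)ˣ) : Module.End ℂ V)
      = c • ρ ⟨(k : G) * h * (k : G)⁻¹, hL.conj_mem _ hh _⟩ := by
    rw [hc, mul_smul_comm, k2 ⟨(h : G), hh⟩, smul_mul_assoc, mul_assoc, Units.mul_inv, mul_one]
  rw [e1, mul_smul_comm, ← map_mul, map_smul, smul_eq_mul]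
  congr 1
  have e2 : ∀ (a b : L) (hab : (a * b : L) = ⟨g * l * g⁻¹, hx'⟩), LinearMap.trace ℂ V (ρ (a * b))
      = ρ.character ⟨l, hx⟩ := by
    intro a b hab
    rw [hab]
    have e3 := congrFun (hinv g) ⟨l, hx⟩
    rw [cj_apply] at e3
    exact e3
  apply e2
  apply Subtype.ext
  simp only [Subgroup.coe_mul]
  exact inv_mul_cancel_right _ _

end Fin

end Cfsg.Agent.Char.BG
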