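import Cfsg.Agent.Char.Berger3

/-!
# Berger's theorem: quasi-primitive characters of solvable groups are primitive (owner: helper15)
-/

set_option autoImplicit false

namespace Cfsg.Agent.Char.BG

open Cfsg Cfsg.Agent.Char Cfsg.Agent.CharBase Cfsg.Agent.Char.GD Cfsg.Agent.Char.MT
open scoped ComplexConjugate

universe u

variable {G : Type u} [Group G] [Fintype G]

/-- Constituents of a restriction of `ψ` are constituents of the restriction of `ψ^G`. -/
theorem constituent_of_ind (H K : Subgroup G) [Fintype K] (hKH : K ≤ H) {ψ : H → ℂ}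
    (hψ : IsIrrCharacter H ψ) (hind : IsIrrCharacter G (indFun H ψ)) {η : K → ℂ} (hη : IsIrrCharacter K η)
    (hne : classInner (fun x : K => ψ ⟨(x : G), hKH x.2⟩) η ≠ 0) :
    classInner (fun x : K => indFun H ψ x) η ≠ 0 := by
  have := Fintype.ofFinite H
  have := Fintype.ofFinite (K.subgroupOf H)
  have hχc := isCharacter_of_isIrr hind
  have hχcf := isClassFunction_of_isCharacter hχc
  have hψcf := isClassFunction_of_isCharacter (isCharacter_of_isIrr hψ)
  let e := Subgroup.subgroupOfEquivOfLe hKH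
  have hη' : IsIrrCharacter (K.subgroupOf H) (fun x : K.subgroupOf H => η (e x)) := isIrr_comp_equiv e hη
  have htr : ∀ F : G → ℂ, classInner (fun x : K => F x) η
      = classInner (fun x : K.subgroupOf H => F ((x : H) : G)) (fun x : K.subgroupOf H => η (e x)) := by
    intro F
    unfold classInner
    rw [Nat.card_congr e.symm.toEquiv]
    congr 1
    exact (Equiv.sum_comp e.toEquiv (fun x : K => F x * conj (η x))).symm
  have hne' : classInner (fun x : K.subgroupOf H => ψ x) (fun x : K.subgroupOf H => η (e x)) ≠ 0 := by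
    intro h0
    apply hne
    rw [← h0]
    unfold classInner
    rw [Nat.card_congr e.symm.toEquiv]
    congr 1
    exact (Equiv.sum_comp e.toEquiv (fun x : K => ψ ⟨(x : G), hKH x.2⟩ * conj (η x))).symm
  have h2 := classInner_ne_zero_of_common (φ := fun t : H => indFun H ψ t)
    (ψ := indFun (K.subgroupOf H) (fun x : K.subgroupOf H => η (e x))) (χ := ψ)
    (isCharacter_restrict hχc H) (indFun_isCharacter _ _ (isCharacter_of_isIrr hη')) hψ (by
      rw [← frobenius_reciprocity' H ψ (indFun H ψ) hχcf, classInner_self_of_irr hind]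
      exact one_ne_zero) (by
      rw [frobenius_reciprocity _ _ ψ hψcf, Cfsg.Agent.Char.classInner_conj_symm]
      intro h0
      rw [map_eq_zero] at h0
      exact hne' h0)
  rw [frobenius_reciprocity' (K.subgroupOf H) _ _
    (isClassFunction_of_isCharacter (isCharacter_restrict hχc H))] at h2
  rw [htr]
  exact h2

/-- The core step of Berger's theorem. -/
theorem berger_step [Group.IsSolvable G] (H : Subgroup G) (hmax : IsCoatom H) {χ : G → ℂ}
    (hχ : IsIrrCharacter G χ) (hhom : ∀ N : Subgroup G, N.Normal → Homog χ N) {ψ : H → ℂ}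
    (hψ : IsCharacter H ψ) (hind : indFun H ψ = χ) :
    ∃ T : Subgroup G, T ≠ ⊤ ∧ (∃ κ : T → ℂ, IsCharacter T κ ∧ indFun T κ = χ) ∧
      ∃ M₀ : Subgroup G, M₀.Normal ∧ M₀ ≤ T ∧ H.normalCore < M₀ := by
  classical
  have := Fintype.ofFinite H
  obtain ⟨L, hLdef⟩ : ∃ L, L = H.normalCore := ⟨_, rfl⟩
  have hL : L.Normal := by rw [hLdef]; infer_instance
  have hLH : L ≤ H := by rw [hLdef]; exact Subgroup.normalCore_le H
  have hcore : ∀ K : Subgroup G, K.Normal → K ≤ H → K ≤ L := fun K hK hKH => by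
    rw [hLdef]; exact Subgroup.normal_le_normalCore.mpr hKH
  rw [← hLdef]
  have := Fintype.ofFinite L
  have hχc := isCharacter_of_isIrr hχ
  have hχcf := isClassFunction_of_isCharacter hχc
  have hψirr : IsIrrCharacter H ψ := isIrr_of_indFun H hψ (by rw [hind]; exact hχ)
  have hLlt : L < ⊤ := lt_top_iff_ne_top.mpr (fun h => hmax.1 (top_le_iff.mp (h ▸ hLH)))
  obtain ⟨M, hMn, hLM, -, hMchief, hMab⟩ := exists_chief_above L ⊤ hLlt
    (Group.isSolvable_of_surjective (QuotientGroup.mk'_surjective L))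
  have hsup : H ⊔ M = ⊤ := by
    apply hmax.2
    refine lt_of_le_of_ne le_sup_left fun h => ?_
    have h1 : M ≤ H := by rw [h]; exact le_sup_right
    exact hLM.not_ge (hcore M hMn h1)
  have hHM : H ⊓ M ≤ L := by
    apply hcore _ _ inf_le_left
    apply inf_normal_of hsup hLH hLM.le
    intro m hm x hx
    apply hMab
    exact Subgroup.commutator_mem_commutator hm hx.2
  -- the character of L
  obtain ⟨φ, e0, hφ, he0⟩ := hhom L hL
  have he0ne : (e0 : ℂ) ≠ 0 := by
    intro h
    have h1 := congrFun he0 1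
    rw [h, zero_smul] at h1
    exact irr_one_ne_zero hχ h1
  have hφinv : ∀ g : G, cj L g φ = φ := by
    intro g
    have h1 := cj_restrict L g hχcf
    rw [he0, cj_smul] at h1
    exact smul_right_injective _ he0ne h1
  have hψL : classInner (fun x : L => ψ ⟨(x : G), hLH x.2⟩) φ ≠ 0 := by
    have h1 : IsCharacter L (fun x : L => ψ ⟨(x : G), hLH x.2⟩) :=
      isCharacter_comp hψ (Subgroup.inclusion hLH)
    obtain ⟨η, hη, hne⟩ := exists_constituent h1 (fun h => irr_one_ne_zero hψirr (congrFun h 1))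
    have h2 := constituent_of_ind H L hLH hψirr (by rw [hind]; exact hχ) hη hne
    rw [hind, he0, classInner_smul_left] at h2
    rw [eq_of_classInner_ne_zero hφ hη (right_ne_zero_of_mul h2)]
    exact hne
  obtain ⟨n, ρ, hρ, hρφ⟩ := hφ
  subst hρφ
  -- the covering group
  have hfinΓ : Finite (twGrp L M H ρ) := twGrp_finite L M H hρ hφinv
  have := Fintype.ofFinite (twGrp L M H ρ)
  set f : twGrp L M H ρ →* G := prG with hfdef
  have hf : Function.Surjective f := prG_surjective hρ hφinv hsup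
  have := Fintype.ofFinite (H.comap f)
  have := Fintype.ofFinite (L.comap f)
  have hhatc : IsCharacter (H.comap f) (hatRep (ρ := ρ) hHM).character := isCharacter_of_rep (hatRep hHM)
  have hhatemb : (fun l : L => (hatRep (ρ := ρ) hHM).character (embL hLM.le hLH l)) = ρ.character := by
    funext l
    have h1 := DFunLike.congr_fun (hatRep_embL (ρ := ρ) hHM hLM.le hLH) l
    exact congrArg (LinearMap.trace ℂ (Fin n → ℂ)) h1
  have hρirr : IsIrrCharacter L ρ.character := ⟨n, ρ, hρ, rfl⟩
  have hhat : IsIrrCharacter (H.comap f) (hatRep (ρ := ρ) hHM).character :=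
    isIrr_of_comp (embL hLM.le hLH) hhatc (by rw [hhatemb]; exact hρirr)
  obtain ⟨θ, hθdef⟩ : ∃ θ : H.comap f → ℂ, θ = (hatRep (ρ := ρ) hHM).character := ⟨_, rfl⟩
  rw [← hθdef] at hhatc hhatemb hhat
  have hθcf := isClassFunction_of_isCharacter hhatc
  -- the inflated character
  let fH : H.comap f →* H :=
    { toFun := fun x => ⟨f x, x.2⟩
      map_one' := by ext; simp
      map_mul' := fun x y => by ext; simp }
  have hfH : Function.Surjective fH := by
    rintro ⟨y, hy⟩
    obtain ⟨x, rfl⟩ := hf y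
    exact ⟨⟨x, hy⟩, rfl⟩
  have hψt : IsIrrCharacter (H.comap f) (fun x : H.comap f => ψ (fH x)) :=
    isIrrCharacter_comp_surjective hψirr fH hfH
  -- Gallagher
  have hNn : (embL (ρ := ρ) hLM.le hLH).range.Normal := embL_range_normal hLM.le hLH
  obtain ⟨N1, hN1⟩ : ∃ N1 : Subgroup (H.comap f), N1 = (embL (ρ := ρ) hLM.le hLH).range := ⟨_, rfl⟩
  have hN1n : N1.Normal := by rw [hN1]; exact hNn
  have := Fintype.ofFinite N1
  let ιN : L →* N1 :=
    { toFun := fun l => ⟨embL hLM.le hLH l, by rw [hN1]; exact ⟨l, rfl⟩⟩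
      map_one' := by ext1; simp
      map_mul' := fun x y => by ext1; simp }
  have hιN : Function.Bijective ιN := by
    constructor
    · intro x y hxy
      have h1 : embL (ρ := ρ) hLM.le hLH x = embL hLM.le hLH y := congrArg Subtype.val hxy
      have h2 := congrArg (fun z : H.comap f => (z : twGrp L M H ρ).1.1) h1
      apply Subtype.ext
      exact h2
    · rintro ⟨x, hx⟩
      have hx' := hx
      rw [hN1] at hx'
      obtain ⟨l, rfl⟩ := hx'
      exact ⟨l, rfl⟩
  have hϑirr : IsIrrCharacter N1 (fun x : N1 => θ x) :=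
    isIrr_of_comp ιN (isCharacter_restrict hhatc N1) (by
      have h1 : (fun l : L => θ ((ιN l : N1) : H.comap f)) = ρ.character := hhatemb
      rw [h1]; exact hρirr)
  have hone : IsIrrCharacter N1 (fun _ => 1) := isIrrCharacter_one
  have hmul1 : (fun _ : N1 => (1 : ℂ)) * (fun x : N1 => θ x) = fun x : N1 => θ x := by
    funext x; simp
  have hbij := gallagher_bijOn N1 (fun _ => 1) (fun x : N1 => θ x) hone (fun g => rfl)
    (fun g => cj_restrict N1 g hθcf) (by rw [hmul1]; exact hϑirr) θ hhat (fun _ => rfl)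
  have hmem : (fun x : H.comap f => ψ (fH x)) ∈ {ψ' : H.comap f → ℂ | IsIrrCharacter (H.comap f) ψ' ∧
      classInner (indFun N1 ((fun _ : N1 => (1 : ℂ)) * (fun x : N1 => θ x))) ψ' ≠ 0} := by
    refine ⟨hψt, ?_⟩
    rw [hmul1, frobenius_reciprocity N1 _ _ (isClassFunction_of_isCharacter (isCharacter_of_isIrr hψt)),
      Cfsg.Agent.Char.classInner_conj_symm]
    intro h0
    rw [map_eq_zero] at h0
    apply hψL
    rw [← h0]
    unfold classInner
    have hcard : Nat.card L = Nat.card N1 := Nat.card_congr (Equiv.ofBijective ιN hιN)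
    rw [hcard]
    congr 1
    rw [← Equiv.sum_comp (Equiv.ofBijective ιN hιN)]
    refine Finset.sum_congr rfl fun l _ => ?_
    have h1 : θ ((ιN l : N1) : H.comap f) = ρ.character l := congrFun hhatemb l
    have h2 : ψ (fH ((ιN l : N1) : H.comap f)) = ψ ⟨(l : G), hLH l.2⟩ := rfl
    change ψ ⟨(l : G), hLH l.2⟩ * conj (ρ.character l)
      = ψ (fH ((ιN l : N1) : H.comap f)) * conj (θ ((ιN l : N1) : H.comap f))
    rw [h1, h2]
  obtain ⟨β, ⟨hβ, hβne⟩, hβeq⟩ := hbij.surjOn hmem
  simp only at hβeq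
  have hβconst : ∀ (m : N1) (g : H.comap f), β ((m : H.comap f) * g) = β g := by
    apply irr_const_of_classInner_ne_zero N1 hβ
    rw [frobenius_reciprocity N1 _ _ (isClassFunction_of_isCharacter (isCharacter_of_isIrr hβ)),
      Cfsg.Agent.Char.classInner_conj_symm] at hβne
    intro h0
    apply hβne
    rw [h0, map_zero]
  have hβr : ∀ x : H.comap f, β (retr (x : twGrp L M H ρ)) = β x := by
    intro x
    conv_rhs => rw [eq_embL_mul_retr hHM hLM.le hLH x]
    exact (hβconst ⟨_, by rw [hN1]; exact ⟨_, rfl⟩⟩ _).symm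
  obtain ⟨ξ, hξdef⟩ : ∃ ξ : twGrp L M H ρ → ℂ, ξ = fun γ => β (retr γ) := ⟨_, rfl⟩
  have hξc : IsCharacter (twGrp L M H ρ) ξ := by
    rw [hξdef]; exact isCharacter_comp (isCharacter_of_isIrr hβ) retr
  have hξcf := isClassFunction_of_isCharacter hξc
  have hψθ : (fun x : H.comap f => ψ ⟨f x, x.2⟩) = fun x => θ x * ξ x := by
    funext x
    have h1 := congrFun hβeq x
    rw [hξdef]
    simp only
    rw [hβr, mul_comm]
    exact h1.symm
  have hχf : (fun γ => χ (f γ)) = (indFun (H.comap f) θ) * ξ := by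
    have h1 := indFun_comap f hf H ψ
    rw [hψθ, indFun_mul_restrict _ θ ξ hξcf, hind] at h1
    exact h1.symm
  have hχfirr : IsIrrCharacter (twGrp L M H ρ) (fun γ => χ (f γ)) :=
    isIrrCharacter_comp_surjective hχ f hf
  have hα : IsIrrCharacter (twGrp L M H ρ) (indFun (H.comap f) θ) :=
    isIrr_of_mul (indFun_isCharacter _ _ hhatc) hξc (by rw [← hχf]; exact hχfirr)
  -- the preimage of L
  have hLHt : L.comap f ≤ H.comap f := Subgroup.comap_mono hLH
  have hLtn : (L.comap f).Normal := hL.comap f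
  let ιL : L →* (L.comap f : Subgroup (twGrp L M H ρ)) :=
    { toFun := fun l => ⟨(embL hLM.le hLH l : H.comap f), l.2⟩
      map_one' := by ext1; simp
      map_mul' := fun x y => by ext1; simp }
  have hθL : IsIrrCharacter (L.comap f) (fun x : L.comap f => θ ⟨(x : twGrp L M H ρ), hLHt x.2⟩) := by
    have h0 : IsCharacter (L.comap f) (fun x : L.comap f => θ ⟨(x : twGrp L M H ρ), hLHt x.2⟩) :=
      isCharacter_comp hhatc (Subgroup.inclusion hLHt)
    refine isIrr_of_comp ιL h0 ?_
    have h1 : (fun l : L => θ ⟨((ιL l : L.comap f) : twGrp L M H ρ), hLHt (ιL l).2⟩) = ρ.character := hhatemb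
    rw [h1]; exact hρirr
  have hθLinv : ∀ γ : twGrp L M H ρ, cj (L.comap f) γ (fun x : L.comap f => θ ⟨(x : twGrp L M H ρ), hLHt x.2⟩)
      = fun x : L.comap f => θ ⟨(x : twGrp L M H ρ), hLHt x.2⟩ := by
    intro γ
    funext x
    rw [cj_apply]
    simp only [hθdef]
    exact hatRep_inv hρ hφinv hHM hLM.le hLH γ x x.2 (hLtn.conj_mem _ x.2 γ)
  have hαL : Homog (indFun (H.comap f) θ) (L.comap f) := by
    have h1 := restrict_ne_zero_of_ind (H.comap f) (L.comap f) hLHt hhat hθL hα
    have h2 := restrict_eq_smul_of_invariant (L.comap f) hα hθL h1 hθLinv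
    obtain ⟨e, he⟩ := classInner_natCast (isCharacter_restrict (isCharacter_of_isIrr hα) (L.comap f))
      (isCharacter_of_isIrr hθL)
    exact ⟨_, e, hθL, by rw [← he]; exact h2⟩
  have hmaxt : IsCoatom (H.comap f) := Subgroup.isCoatom_comap_of_surjective hf hmax
  have hsolvt : Group.IsSolvable (twGrp L M H ρ ⧸ L.comap f) := by
    have hinj : Function.Injective (QuotientGroup.map (L.comap f) L f le_rfl) := by
      rw [injective_iff_map_eq_one]
      intro x hx
      obtain ⟨y, rfl⟩ := QuotientGroup.mk_surjective x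
      have h1 : ((f y : G) : G ⧸ L) = 1 := hx
      rw [QuotientGroup.eq_one_iff] at h1 ⊢
      exact h1
    have hsol : Group.IsSolvable (G ⧸ L) := Group.isSolvable_of_surjective (QuotientGroup.mk'_surjective L)
    exact Group.isSolvable_of_isSolvable_injective hinj
  have hcoret : ∀ K : Subgroup (twGrp L M H ρ), K.Normal → K ≤ H.comap f → K ≤ L.comap f := by
    intro K hK hKH
    rw [← Subgroup.map_le_iff_le_comap]
    exact hcore _ (hK.map f hf) (Subgroup.map_le_iff_le_comap.mpr hKH)
  obtain ⟨M', hM'n, hLM', hM'⟩ : ∃ M' : Subgroup (twGrp L M H ρ), M'.Normal ∧ L.comap f ≤ M' ∧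
      ¬ Homog (indFun (H.comap f) θ) M' := by
    by_contra hcon
    push Not at hcon
    exact berger_core (L.comap f) (H.comap f) hLHt hmaxt hsolvt hcoret hhat hθL hα hcon
  have hne : M' ≠ L.comap f := fun h => hM' (by rw [h]; exact hαL)
  obtain ⟨T, hM'T, hTtop, κ, hκ, hκind⟩ := exists_induced_of_not_homog hα M' hM'
  have hκc : IsCharacter T (fun x : T => κ x * ξ x) :=
    isCharacter_mul (isCharacter_of_isIrr hκ) (isCharacter_restrict hξc T)
  have hκ' : indFun T (fun x : T => κ x * ξ x) = fun γ => χ (f γ) := by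
    rw [indFun_mul_restrict _ κ ξ hξcf, hκind, hχf]
    rfl
  have hκirr : IsIrrCharacter T (fun x : T => κ x * ξ x) := isIrr_of_indFun T hκc (by
    rw [hκ']; exact hχfirr)
  have hkerL : f.ker ≤ L.comap f := fun x hx => by
    rw [Subgroup.mem_comap, MonoidHom.mem_ker.mp hx]; exact L.one_mem
  have hkerT : f.ker ≤ T := hkerL.trans (hLM'.trans hM'T)
  obtain ⟨κ₀, hκ₀, hκ₀ind⟩ := descend f hf T hkerT hκirr hχ hκ'
  refine ⟨T.map f, ?_, ⟨κ₀, isCharacter_of_isIrr hκ₀, hκ₀ind⟩, M'.map f, hM'n.map f hf,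
    Subgroup.map_mono hM'T, ?_⟩
  · intro h
    apply hTtop
    have h1 : (T.map f).comap f = T := by rw [Subgroup.comap_map_eq, sup_eq_left.mpr hkerT]
    rw [← h1, h, Subgroup.comap_top]
  · have h1 : (L.comap f).map f = L := Subgroup.map_comap_eq_self_of_surjective hf L
    refine lt_of_le_of_ne ?_ ?_
    · exact h1.ge.trans (Subgroup.map_mono hLM')
    · intro h
      apply hne
      have h2 : (M'.map f).comap f = M' := by
        rw [Subgroup.comap_map_eq, sup_eq_left.mpr (hkerL.trans hLM')]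
      rw [← h2, ← h]

/-- **Berger's theorem**: quasi-primitive characters of solvable groups are primitive. -/
theorem berger [Group.IsSolvable G] {χ : G → ℂ} (hχ : IsIrrCharacter G χ)
    (hhom : ∀ N : Subgroup G, N.Normal → Homog χ N) (K : Subgroup G) (hK : K ≠ ⊤) {ψ : K → ℂ}
    (hψ : IsCharacter K ψ) : indFun K ψ ≠ χ := by
  classical
  intro hind
  -- any induction datum extends to a maximal subgroup
  have hup : ∀ T : Subgroup G, T ≠ ⊤ → (∃ κ : T → ℂ, IsCharacter T κ ∧ indFun T κ = χ) →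
      ∃ H : Subgroup G, IsCoatom H ∧ T ≤ H ∧ ∃ κ : H → ℂ, IsCharacter H κ ∧ indFun H κ = χ := by
    rintro T hT ⟨κ, hκ, hκind⟩
    obtain ⟨H, hH, hTH⟩ := (eq_top_or_exists_le_coatom T).resolve_left hT
    have := Fintype.ofFinite H
    refine ⟨H, hH, hTH, indFun (T.subgroupOf H) (fun x => κ ⟨(x : H), Subgroup.mem_subgroupOf.mp x.2⟩), ?_, ?_⟩
    · apply indFun_isCharacter
      exact isCharacter_comp hκ (Subgroup.subgroupOfEquivOfLe hTH).toMonoidHom
    · rw [indFun_indFun T H hTH κ, hκind]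
  obtain ⟨H0, hH0, -, hκ0⟩ := hup K hK ⟨ψ, hψ, hind⟩
  obtain ⟨H, ⟨hH, κ, hκ, hκind⟩, hHmax⟩ := (Set.toFinite {H : Subgroup G | IsCoatom H ∧
    ∃ κ : H → ℂ, IsCharacter H κ ∧ indFun H κ = χ}).exists_maximalFor
    (fun H : Subgroup G => Nat.card H.normalCore) _ ⟨H0, hH0, hκ0⟩
  obtain ⟨T, hT, hTκ, M₀, hM₀, hM₀T, hlt⟩ := berger_step H hH hχ hhom hκ hκind
  obtain ⟨H', hH', hTH', hκ'⟩ := hup T hT hTκ
  have h1 : M₀ ≤ H'.normalCore := Subgroup.normal_le_normalCore.mpr (hM₀T.trans hTH')
  have h2 : Nat.card H.normalCore < Nat.card H'.normalCore := by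
    have h3 : H.normalCore < H'.normalCore := lt_of_lt_of_le hlt h1
    exact Set.ncard_lt_ncard h3 (Set.toFinite _)
  have h3 := hHmax (j := H') ⟨hH', hκ'⟩ h2.le
  simp only at h3
  omega

end Cfsg.Agent.Char.BG
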