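import Cfsg.Agent.Char.SolomonLocal
import Cfsg.Agent.Char.ExtThm

/-!
# Dade's theorem on invariant characters and `p`-elementary subgroups (owner: helper15)
-/

set_option autoImplicit false

namespace Cfsg.Agent.Char.DE

open Cfsg Cfsg.Agent.Char Cfsg.Agent.Char.SL Cfsg.Agent.CharBase
open scoped ComplexConjugate

universe u

/-- Sums of functions constant on orbits vanish when each orbit has size divisible by `p` or
the function vanishes on it. -/
theorem sum_eq_zero_of_orbits {A X : Type*} [Group A] [Finite A] [MulAction A X] [Fintype X]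
    {p : ℕ} (f : X → ZMod p) (hf : ∀ (a : A) (x : X), f (a • x) = f x)
    (h : ∀ x : X, f x = 0 ∨ p ∣ Nat.card (MulAction.orbit A x)) : ∑ x, f x = 0 := by
  classical
  have : Fintype (Quotient (MulAction.orbitRel A X)) := Fintype.ofFinite _
  rw [← Finset.sum_fiberwise (s := Finset.univ)
    (g := fun x : X => (Quotient.mk (MulAction.orbitRel A X) x))]
  refine Finset.sum_eq_zero fun ω _ => ?_
  induction ω using Quotient.inductionOn with
  | _ x₀ =>
  have hmem : ∀ x : X, (Quotient.mk (MulAction.orbitRel A X) x = Quotient.mk (MulAction.orbitRel A X) x₀) ↔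
      x ∈ MulAction.orbit A x₀ := fun x => Quotient.eq (r := MulAction.orbitRel A X)
  have h1 : ∀ x ∈ Finset.univ.filter (fun x : X => Quotient.mk (MulAction.orbitRel A X) x =
      Quotient.mk (MulAction.orbitRel A X) x₀), f x = f x₀ := by
    intro x hx
    rw [Finset.mem_filter] at hx
    obtain ⟨a, ha⟩ := (hmem x).mp hx.2
    have ha' : a • x₀ = x := ha
    rw [← ha', hf]
  rw [Finset.sum_congr rfl h1, Finset.sum_const, nsmul_eq_mul]
  rcases h x₀ with h0 | h0
  · rw [h0, mul_zero]
  · have h2 : (Finset.univ.filter (fun x : X => Quotient.mk (MulAction.orbitRel A X) x =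
        Quotient.mk (MulAction.orbitRel A X) x₀)).card = Nat.card (MulAction.orbit A x₀) := by
      rw [Nat.card_eq_fintype_card, Fintype.card_subtype]
      congr 1
      ext x
      simp only [Finset.mem_filter, Finset.mem_univ, true_and]
      exact hmem x
    rw [h2]
    have : ((Nat.card (MulAction.orbit A x₀) : ℕ) : ZMod p) = 0 := (ZMod.natCast_eq_zero_iff _ _).mpr h0
    rw [this, zero_mul]

/-- The conjugation action on the irreducible characters of a normal subgroup. -/
@[reducible] def irrAction {E : Type u} [Group E] (D : Subgroup E) [D.Normal] :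
    MulAction E (IrrCharacter D) where
  smul g χ := ⟨cj D g⁻¹ (χ : D → ℂ), isIrrCharacter_cj D g⁻¹ χ.2⟩
  one_smul χ := Subtype.ext (by
    change cj D (1 : E)⁻¹ (χ : D → ℂ) = χ
    rw [inv_one, cj_one])
  mul_smul g h χ := Subtype.ext (by
    change cj D (g * h)⁻¹ (χ : D → ℂ) = cj D g⁻¹ (cj D h⁻¹ (χ : D → ℂ))
    rw [mul_inv_rev, cj_mul])

section Core

variable {E : Type u} [Group E] [Fintype E] (D : Subgroup E) [hD : D.Normal] [Fintype D]

/-- The local computation: if no invariant constituent occurs with multiplicity prime to `p`, the inner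
product is divisible by `p`. -/
theorem dvd_classInner {p : ℕ} (hp : p.Prime) (hind : ∃ k : ℕ, D.index = p ^ k)
    {α β : D → ℂ} (hα : IsCharacter D α) (hβ : IsCharacter D β)
    (hαi : ∀ g : E, cj D g α = α) (hβi : ∀ g : E, cj D g β = β)
    (hno : ∀ φ : IrrCharacter D, (∀ g : E, cj D g (φ : D → ℂ) = φ) →
      ∀ m : ℕ, classInner β (φ : D → ℂ) = m → p ∣ m) :
    ∃ z : ℕ, classInner α β = (p : ℂ) * z := by
  classical
  have := Fintype.ofFinite (IrrCharacter D)
  obtain ⟨a, ha, -⟩ := exists_mult_of_isCharacter hα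
  obtain ⟨b, hb, -⟩ := exists_mult_of_isCharacter hβ
  have h1 : classInner α β = ((∑ φ : IrrCharacter D, a φ * b φ : ℕ) : ℂ) := by
    rw [classInner_eq_sum (isClassFunction_of_isCharacter hα), Nat.cast_sum]
    refine Finset.sum_congr rfl fun φ _ => ?_
    rw [ha φ, classInner_conj_symm β (φ : D → ℂ), hb φ, Complex.conj_natCast]
    push_cast; rfl
  letI := irrAction D
  have hzero : ((∑ φ : IrrCharacter D, a φ * b φ : ℕ) : ZMod p) = 0 := by
    rw [Nat.cast_sum]
    refine sum_eq_zero_of_orbits (A := E) (fun φ : IrrCharacter D => ((a φ * b φ : ℕ) : ZMod p)) ?_ ?_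
    · intro g φ
      have e1 : a (g • φ) = a φ := by
        have h2 : classInner α ((g • φ : IrrCharacter D) : D → ℂ) = classInner α (φ : D → ℂ) := by
          change classInner α (cj D g⁻¹ (φ : D → ℂ)) = _
          conv_lhs => rw [← hαi g⁻¹]
          rw [classInner_cj]
        rw [ha, ha] at h2
        exact_mod_cast h2
      have e2 : b (g • φ) = b φ := by
        have h2 : classInner β ((g • φ : IrrCharacter D) : D → ℂ) = classInner β (φ : D → ℂ) := by
          change classInner β (cj D g⁻¹ (φ : D → ℂ)) = _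
          conv_lhs => rw [← hβi g⁻¹]
          rw [classInner_cj]
        rw [hb, hb] at h2
        exact_mod_cast h2
      simp only [e1, e2]
    · intro φ
      obtain ⟨k, hk⟩ := hind
      have hle : D ≤ MulAction.stabilizer E φ := by
        intro d hd
        rw [MulAction.mem_stabilizer_iff]
        apply Subtype.ext
        exact cj_of_mem D d⁻¹ (D.inv_mem hd)
          (isClassFunction_of_isCharacter (isCharacter_of_isIrr φ.2))
      have hcard : Nat.card (MulAction.orbit E φ) = (MulAction.stabilizer E φ).index := by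
        rw [MulAction.index_stabilizer]
        rfl
      have hdvd : Nat.card (MulAction.orbit E φ) ∣ p ^ k := by
        rw [hcard, ← hk]
        exact Subgroup.index_dvd_of_le hle
      obtain ⟨j, -, hj⟩ := (Nat.dvd_prime_pow hp).mp hdvd
      rcases Nat.eq_zero_or_pos j with h0 | h0
      · left
        rw [h0, pow_zero] at hj
        have hstab : MulAction.stabilizer E φ = ⊤ := by
          rw [← Subgroup.index_eq_one, ← hcard, hj]
        have hinv : ∀ g : E, cj D g (φ : D → ℂ) = φ := by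
          intro g
          have h2 : g⁻¹ ∈ MulAction.stabilizer E φ := by rw [hstab]; exact Subgroup.mem_top _
          rw [MulAction.mem_stabilizer_iff] at h2
          have h3 := congrArg Subtype.val h2
          change cj D g⁻¹⁻¹ (φ : D → ℂ) = φ at h3
          rwa [inv_inv] at h3
        have h3 := hno φ hinv (b φ) (hb φ)
        have h4 : ((a φ * b φ : ℕ) : ZMod p) = 0 :=
          (ZMod.natCast_eq_zero_iff _ _).mpr (h3.mul_left _)
        exact h4
      · right
        rw [hj]
        exact dvd_pow_self p h0.ne'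
  obtain ⟨z, hz⟩ := (ZMod.natCast_eq_zero_iff _ _).mp hzero
  exact ⟨z, by rw [h1, hz]; push_cast; rfl⟩

end Core

section Global

variable {G : Type u} [Group G] [Fintype G] (N : Subgroup G) [hN : N.Normal]

/-- restriction of a function on `N` to `N ∩ E` seen inside `E`. -/
def resE (E : Subgroup G) (θ : N → ℂ) : N.subgroupOf E → ℂ :=
  fun x => θ ⟨((x : E) : G), Subgroup.mem_subgroupOf.mp x.2⟩

/-- The inclusion `N ∩ E → N`. -/
def inclE (E : Subgroup G) : N.subgroupOf E →* N where
  toFun x := ⟨((x : E) : G), Subgroup.mem_subgroupOf.mp x.2⟩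
  map_one' := rfl
  map_mul' _ _ := rfl

theorem resE_eq (E : Subgroup G) (θ : N → ℂ) : resE N E θ = fun x => θ (inclE N E x) := rfl

omit hN in
theorem isCharacter_resE (E : Subgroup G) {θ : N → ℂ} (h : IsCharacter N θ) :
    IsCharacter (N.subgroupOf E) (resE N E θ) := isCharacter_comp h (inclE N E)

theorem cj_resE (E : Subgroup G) {θ : N → ℂ} (hinv : ∀ g : G, cj N g θ = θ) (g : E) :
    cj (N.subgroupOf E) g (resE N E θ) = resE N E θ := by
  funext x
  exact congrFun (hinv (g : G)) ⟨((x : E) : G), Subgroup.mem_subgroupOf.mp x.2⟩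

omit hN in
/-- `|G| |E ∩ N| = [G : EN] |E| |N|`. -/
theorem card_formula (E : Subgroup G) [hN : N.Normal] :
    (Nat.card G : ℂ) * Nat.card (N.subgroupOf E) =
      ((E ⊔ N).index : ℂ) * Nat.card E * Nat.card N := by
  have h1 : Nat.card (N.subgroupOf E) * N.relIndex E = Nat.card E :=
    (N.subgroupOf E).card_mul_index
  have h2 : N.relIndex (E ⊔ N) * (E ⊔ N).index = N.index := Subgroup.relIndex_mul_index le_sup_right
  have h3 : N.relIndex (E ⊔ N) = N.relIndex E := by
    rw [Subgroup.relIndex_sup_right]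
  have h4 := N.card_mul_index
  have h5 : Nat.card G * Nat.card (N.subgroupOf E) = (E ⊔ N).index * Nat.card E * Nat.card N := by
    rw [← h4, ← h2, h3, ← h1]; ring
  exact_mod_cast h5

/-- The key formula for the restriction to `N` of a character induced from `E`. -/
theorem classInner_indFun_mul' [Fintype N] (E : Subgroup G) [Fintype (N.subgroupOf E)]
    {a b : N → ℂ} (ha : ∀ g : G, cj N g a = a) (hb : ∀ g : G, cj N g b = b) (ψ : E → ℂ) :
    classInner (fun n : N => indFun E ψ n * a n) b =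
      ((E ⊔ N).index : ℂ) *
        classInner (fun x : N.subgroupOf E => ψ x * resE N E a x) (resE N E b) := by
  classical
  have hE0 := card_ne_zero_complex E
  have hN0 := card_ne_zero_complex N
  have hD0 := card_ne_zero_complex (N.subgroupOf E)
  unfold classInner
  -- the double sum
  have h1 : ∑ n : N, indFun E ψ n * a n * conj (b n) =
      (Nat.card E : ℂ)⁻¹ * ∑ x : G, ∑ n : N, extendByZero E ψ (x⁻¹ * n * x) * (a n * conj (b n)) := by
    rw [Finset.sum_comm, Finset.mul_sum]
    refine Finset.sum_congr rfl fun n _ => ?_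
    rw [indFun, mul_assoc, mul_assoc, Finset.sum_mul]
  have h2 : ∀ x : G, ∑ n : N, extendByZero E ψ (x⁻¹ * n * x) * (a n * conj (b n)) =
      ∑ n : N, extendByZero E ψ n * (a n * conj (b n)) := by
    intro x
    rw [← Equiv.sum_comp (cjEquiv N x).toEquiv]
    refine Finset.sum_congr rfl fun n _ => ?_
    have h3 : a ((cjEquiv N x).toEquiv n) = a n := congrFun (ha x) n
    have h3' : b ((cjEquiv N x).toEquiv n) = b n := congrFun (hb x) n
    have h4 : x⁻¹ * ((cjEquiv N x).toEquiv n : N) * x = (n : G) := by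
      change x⁻¹ * (x * n * x⁻¹) * x = (n : G)
      group
    rw [h3, h3', h4]
  have h3 : ∑ n : N, extendByZero E ψ n * (a n * conj (b n)) =
      ∑ y : N.subgroupOf E, ψ y * resE N E a y * conj (resE N E b y) := by
    have h5 : ∑ n : N, extendByZero E ψ n * (a n * conj (b n)) =
        ∑ n ∈ Finset.univ.filter (fun n : N => (n : G) ∈ E),
          extendByZero E ψ n * (a n * conj (b n)) := by
      rw [Finset.sum_filter]
      refine Finset.sum_congr rfl fun n _ => ?_
      split_ifs with h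
      · rfl
      · rw [extendByZero_of_notMem E _ h, zero_mul]
    rw [h5]
    symm
    refine Finset.sum_bij (fun y _ => inclE N E y) ?_ ?_ ?_ ?_
    · intro y _
      rw [Finset.mem_filter]
      exact ⟨Finset.mem_univ _, (y : E).2⟩
    · intro y _ y' _ hyy
      apply Subtype.ext
      apply Subtype.ext
      exact congrArg (fun n : N => (n : G)) hyy
    · intro n hn
      rw [Finset.mem_filter] at hn
      exact ⟨⟨⟨n, hn.2⟩, Subgroup.mem_subgroupOf.mpr n.2⟩, Finset.mem_univ _, rfl⟩
    · intro y _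
      change ψ y * resE N E a y * conj (resE N E b y) =
        extendByZero E ψ ((y : E) : G) * (resE N E a y * conj (resE N E b y))
      rw [extendByZero_of_mem E ψ (y : E).2, mul_assoc]
  rw [h1, Finset.sum_congr rfl (fun x _ => h2 x), Finset.sum_const, Finset.card_univ, nsmul_eq_mul,
    ← Nat.card_eq_fintype_card, h3]
  have h6 := card_formula N E
  have h7 : (Nat.card N : ℂ)⁻¹ * ((Nat.card E : ℂ)⁻¹ * (Nat.card G)) =
      ((E ⊔ N).index : ℂ) * (Nat.card (N.subgroupOf E) : ℂ)⁻¹ := by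
    field_simp
    rw [h6]; ring
  rw [← mul_assoc, ← mul_assoc, ← mul_assoc, mul_assoc ((Nat.card N : ℂ)⁻¹), h7]

theorem classInner_indFun_mul [Fintype N] (E : Subgroup G) [Fintype (N.subgroupOf E)]
    {θ : N → ℂ} (hinv : ∀ g : G, cj N g θ = θ) (ψ : E → ℂ) :
    classInner (fun n : N => indFun E ψ n * θ n) θ =
      ((E ⊔ N).index : ℂ) *
        classInner (fun x : N.subgroupOf E => ψ x * resE N E θ x) (resE N E θ) :=
  classInner_indFun_mul' N E hinv hinv ψ

theorem classInner_indFun_restrict_inv [Fintype N] (E : Subgroup G) [Fintype (N.subgroupOf E)]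
    {θ : N → ℂ} (hinv : ∀ g : G, cj N g θ = θ) (ψ : E → ℂ) :
    classInner (fun n : N => indFun E ψ n) θ =
      ((E ⊔ N).index : ℂ) *
        classInner (fun x : N.subgroupOf E => ψ x) (resE N E θ) := by
  have h := classInner_indFun_mul' N E (a := fun _ => 1) (b := θ) (fun g => rfl) hinv ψ
  simp only [mul_one] at h
  rw [h]
  congr 2
  funext x
  simp [resE]

/-- **Dade's theorem**. -/
theorem dade {p : ℕ} (hp : p.Prime) (hind : ∃ k : ℕ, N.index = p ^ k) {θ : N → ℂ}
    (hθ : IsIrrCharacter N θ) (hinv : ∀ g : G, cj N g θ = θ) :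
    ∃ (E : Subgroup G) (_ : Fintype (N.subgroupOf E)) (φ : N.subgroupOf E → ℂ), IsElementary p E ∧ E ⊔ N = ⊤ ∧
      IsIrrCharacter (N.subgroupOf E) φ ∧ (∀ g : E, cj (N.subgroupOf E) g φ = φ) ∧
      ∃ m : ℕ, ¬ p ∣ m ∧ classInner (resE N E θ) φ = m := by
  classical
  by_contra hcon
  have := Fintype.ofFinite N
  have hθc := isCharacter_of_isIrr hθ
  obtain ⟨m, hm, hmem⟩ := brauer_local G p hp
  have key : ∀ f ∈ elemSpanAt G p, ∃ z : ℤ, classInner (fun n : N => f n * θ n) θ = (p : ℂ) * z := by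
    intro f hf
    unfold elemSpanAt at hf
    induction hf using AddSubgroup.closure_induction with
    | zero => exact ⟨0, by simp [classInner]⟩
    | add a b _ _ ha hb =>
      obtain ⟨z, hz⟩ := ha
      obtain ⟨w, hw⟩ := hb
      refine ⟨z + w, ?_⟩
      have h1 : (fun n : N => (a + b) n * θ n) = (fun n : N => a n * θ n) + (fun n : N => b n * θ n) := by
        funext n
        simp only [Pi.add_apply, add_mul]
      rw [h1, classInner_add_left, hz, hw]
      push_cast; ring
    | neg a _ ha =>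
      obtain ⟨z, hz⟩ := ha
      refine ⟨-z, ?_⟩
      have h1 : (fun n : N => (-a) n * θ n) = (-1 : ℂ) • (fun n : N => a n * θ n) := by
        funext n
        simp
      rw [h1, classInner_smul_left, hz]
      push_cast; ring
    | mem f hf =>
      obtain ⟨E, ψ, hE, hψ, rfl⟩ := hf
      have := Fintype.ofFinite (N.subgroupOf E)
      have := Fintype.ofFinite E
      rw [classInner_indFun_mul N E hinv ψ]
      have hα : IsCharacter (N.subgroupOf E) (fun x : N.subgroupOf E => ψ x * resE N E θ x) :=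
        isCharacter_mul (isCharacter_restrict hψ (N.subgroupOf E)) (isCharacter_resE N E hθc)
      by_cases hEN : E ⊔ N = ⊤
      · have hind' : ∃ k : ℕ, (N.subgroupOf E).index = p ^ k := by
          obtain ⟨k, hk⟩ := hind
          have h1 : N.relIndex E ∣ p ^ k := by rw [← hk]; exact Subgroup.relIndex_dvd_index_of_normal N E
          obtain ⟨j, -, hj⟩ := (Nat.dvd_prime_pow hp).mp h1
          exact ⟨j, hj⟩
        obtain ⟨z, hz⟩ := dvd_classInner (N.subgroupOf E) hp hind' hα (isCharacter_resE N E hθc)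
          (fun g => by
            have h1 : (fun x : N.subgroupOf E => ψ x * resE N E θ x) =
                (fun x : N.subgroupOf E => ψ x) * resE N E θ := rfl
            rw [h1, cj_mul_fun, cj_resE N E hinv,
              cj_restrict (N.subgroupOf E) g (isClassFunction_of_isCharacter hψ)])
          (cj_resE N E hinv) (fun φ hφ j hj => by
            by_contra hpj
            exact hcon ⟨E, inferInstance, φ, hE, hEN, φ.2, hφ, j, hpj, hj⟩)
        rw [hEN, Subgroup.index_top, Nat.cast_one, one_mul, hz]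
        exact ⟨z, by push_cast; rfl⟩
      · obtain ⟨z, hz⟩ := classInner_natCast hα (isCharacter_resE N E hθc)
        obtain ⟨k, hk⟩ := hind
        have h1 : (E ⊔ N).index ∣ p ^ k := by rw [← hk]; exact Subgroup.index_dvd_of_le le_sup_right
        obtain ⟨j, -, hj⟩ := (Nat.dvd_prime_pow hp).mp h1
        have hj0 : j ≠ 0 := by
          rintro rfl
          rw [pow_zero, Subgroup.index_eq_one] at hj
          exact hEN hj
        obtain ⟨i, rfl⟩ := Nat.exists_eq_succ_of_ne_zero hj0
        rw [hj, hz]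
        refine ⟨(p : ℤ) ^ i * z, ?_⟩
        push_cast
        rw [Nat.succ_eq_add_one, pow_succ]; ring
  obtain ⟨z, hz⟩ := key _ hmem
  have h1 : classInner (fun n : N => (m : ℂ) * θ n) θ = (m : ℂ) := by
    have h2 : (fun n : N => (m : ℂ) * θ n) = (m : ℂ) • θ := rfl
    rw [h2, classInner_smul_left, classInner_irr_self (G := N) ⟨θ, hθ⟩, mul_one]
  rw [h1] at hz
  apply hm
  refine ⟨z, ?_⟩
  exact_mod_cast hz

end Global

/-- Extension of characters of abelian groups. -/
theorem exists_extend_hom {A B : Type*} [CommGroup A] [Finite A] [Group B] (κ : B →* A)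
    (hκ : Function.Injective κ) (f : B →* ℂˣ) : ∃ F : A →* ℂˣ, ∀ b, F (κ b) = f b := by
  obtain ⟨F, hF⟩ := MonoidHom.domRestrict_surjective ℂ κ.range (f.comp (MonoidHom.ofInjective hκ).symm.toMonoidHom)
  refine ⟨F, fun b => ?_⟩
  have h1 := DFunLike.congr_fun hF (MonoidHom.ofInjective hκ b)
  have h2 : F (κ b) = f ((MonoidHom.ofInjective hκ).symm (MonoidHom.ofInjective hκ b)) := h1
  rwa [MulEquiv.symm_apply_apply] at h2

/-- Gluing homomorphisms into an abelian group. -/
theorem exists_glue_hom {E U : Type*} [Group E] [CommGroup U] (N Q : Subgroup E) [hN : N.Normal]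
    (hNQ : N ⊔ Q = ⊤) (R : N →* U) (S : Q →* U)
    (hagree : ∀ (x : E) (hn : x ∈ N) (hq : x ∈ Q), R ⟨x, hn⟩ = S ⟨x, hq⟩)
    (hinv : ∀ g ∈ Q, ∀ n : N, R ⟨g * n * g⁻¹, hN.conj_mem (n : E) n.2 g⟩ = R n) :
    ∃ F : E →* U, (∀ n : N, F n = R n) ∧ ∀ q : Q, F q = S q := by
  classical
  have hdec : ∀ e : E, ∃ n : N, ∃ q : Q, (n : E) * q = e := by
    intro e
    have h1 : e ∈ N ⊔ Q := by rw [hNQ]; exact Subgroup.mem_top e
    obtain ⟨n, hn, q, hq, h⟩ := Subgroup.mem_sup_of_normal_left.mp h1
    exact ⟨⟨n, hn⟩, ⟨q, hq⟩, h⟩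
  choose n q hnq using hdec
  have hwell : ∀ (e : E) (a : N) (b : Q), (a : E) * b = e → R (n e) * S (q e) = R a * S b := by
    intro e a b hab
    have h1 : (a : E)⁻¹ * n e = b * (q e : E)⁻¹ := by
      have h2 := (hnq e).trans hab.symm
      rw [inv_mul_eq_iff_eq_mul, ← mul_assoc, eq_mul_inv_iff_mul_eq]
      exact h2
    have h2 : R (a⁻¹ * n e) = S (b * (q e)⁻¹) := by
      have h3 := hagree ((a : E)⁻¹ * n e) (a⁻¹ * n e).2 (by rw [h1]; exact (b * (q e)⁻¹).2)
      rw [show (a⁻¹ * n e : N) = ⟨(a : E)⁻¹ * n e, (a⁻¹ * n e).2⟩ from rfl, h3]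
      congr 1
      exact Subtype.ext h1
    rw [map_mul, map_inv, map_mul, map_inv, inv_mul_eq_iff_eq_mul, ← mul_assoc, eq_mul_inv_iff_mul_eq] at h2
    exact h2
  refine ⟨⟨⟨fun e => R (n e) * S (q e), ?_⟩, ?_⟩, ?_, ?_⟩
  · rw [hwell 1 1 1 (by simp)]; simp
  · intro x y
    have h1 : ((n x * ⟨(q x : E) * n y * (q x : E)⁻¹, hN.conj_mem (n y : E) (n y).2 _⟩ : N) : E) *
        ((q x * q y : Q) : E) = x * y := by
      conv_rhs => rw [← hnq x, ← hnq y]
      simp only [Subgroup.coe_mul]
      group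
    change R (n (x * y)) * S (q (x * y)) = (R (n x) * S (q x)) * (R (n y) * S (q y))
    rw [hwell _ _ _ h1, map_mul, map_mul, hinv _ (q x).2]
    exact mul_mul_mul_comm _ _ _ _
  · intro a
    change R (n a) * S (q a) = R a
    rw [hwell _ a 1 (by simp)]; simp
  · intro b
    change R (n b) * S (q b) = S b
    rw [hwell _ 1 b (by simp)]; simp

section S0897

variable {G : Type u} [Group G] [Fintype G]

theorem extension_of_central_sylow {p : ℕ} [hp : Fact p.Prime] (N : Subgroup G) [hN : N.Normal]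
    (hind : ∃ k : ℕ, N.index = p ^ k) (P : Sylow p G)
    (hcent : ∀ x ∈ (P : Subgroup G) ⊓ N, ∀ y ∈ (P : Subgroup G), x * y = y * x)
    (hlin : ∀ lam : ↥((P : Subgroup G) ⊓ N) → ℂ, IsCharacter ↥((P : Subgroup G) ⊓ N) lam →
      lam 1 = 1 → ∃ μ : ↥(P : Subgroup G) → ℂ, IsCharacter ↥(P : Subgroup G) μ ∧ μ 1 = 1 ∧
        ∀ x : ↥((P : Subgroup G) ⊓ N), μ ⟨(x : G), x.2.1⟩ = lam x)
    {θ : N → ℂ} (hθ : IsIrrCharacter N θ) (hinv : ∀ g : G, cj N g θ = θ) :
    ∃ χ : G → ℂ, IsIrrCharacter G χ ∧ ∀ n : N, χ n = θ n := by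
  classical
  have := Fintype.ofFinite N
  refine exists_extension_of_primes hθ hinv fun q hq => ?_
  by_cases hqp : q ≠ p
  · obtain ⟨k, hk⟩ := hind
    refine ⟨indFun N θ, N.index, indFun_isCharacter N θ (isCharacter_of_isIrr hθ), ?_,
      classInner_indFun_restrict hθ hinv⟩
    rw [hk]
    intro h
    exact hqp ((Nat.prime_dvd_prime_iff_eq hq hp.out).mp (hq.dvd_of_dvd_pow h))
  push Not at hqp
  subst hqp
  obtain ⟨E, hfin, φ, ⟨x, hxc, hxq, j, hj⟩, hEN, hφ, hφinv, m, hm, hmφ⟩ :=
    dade N hq hind hθ hinv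
  obtain ⟨D, hD⟩ : ∃ D : Subgroup E, D = N.subgroupOf E := ⟨_, rfl⟩
  have hmemD : ∀ e : E, e ∈ D ↔ (e : G) ∈ N := by intro e; rw [hD, Subgroup.mem_subgroupOf]
  have hDn : D.Normal := by rw [hD]; infer_instance
  obtain ⟨Q⟩ : Nonempty (Sylow q E) := inferInstance
  have hDidx : ∃ i : ℕ, D.index = q ^ i := by
    obtain ⟨k, hk⟩ := hind
    have h1 : N.relIndex E ∣ q ^ k := by rw [← hk]; exact Subgroup.relIndex_dvd_index_of_normal N E
    obtain ⟨i, -, hi⟩ := (Nat.dvd_prime_pow hq).mp h1
    exact ⟨i, by rw [hD]; exact hi⟩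
  have hQidx : ¬ q ∣ (Q : Subgroup E).index := Q.not_dvd_index
  have hsup : ∀ B : Subgroup E, (∃ i : ℕ, B.index = q ^ i) → B ⊔ (Q : Subgroup E) = ⊤ := by
    rintro B ⟨i, hi⟩
    rw [← Subgroup.index_eq_one]
    have h1 : (B ⊔ (Q : Subgroup E)).index ∣ q ^ i := by
      rw [← hi]; exact Subgroup.index_dvd_of_le le_sup_left
    obtain ⟨l, -, hl⟩ := (Nat.dvd_prime_pow hq).mp h1
    rcases Nat.eq_zero_or_pos l with h0 | h0
    · rw [hl, h0, pow_zero]
    · exfalso
      apply hQidx
      have h2 : (B ⊔ (Q : Subgroup E)).index ∣ (Q : Subgroup E).index := Subgroup.index_dvd_of_le le_sup_right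
      rw [hl] at h2
      exact (dvd_pow_self q h0.ne').trans h2
  have hDQ : D ⊔ (Q : Subgroup E) = ⊤ := hsup D hDidx
  have hxD : x ∈ D := by
    obtain ⟨i, hi⟩ := hDidx
    have h1 : orderOf (QuotientGroup.mk' D x) ∣ q ^ i := by
      rw [← hi]; exact orderOf_dvd_natCard _
    have h2 : orderOf (QuotientGroup.mk' D x) ∣ orderOf x := orderOf_map_dvd _ x
    have h3 : orderOf (QuotientGroup.mk' D x) = 1 :=
      Nat.eq_one_of_dvd_coprimes (hxq.pow_right i) h2 h1
    rw [orderOf_eq_one_iff] at h3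
    exact (QuotientGroup.eq_one_iff x).mp h3
  -- embed `Q` in `P`
  have hQp : IsPGroup q ((Q : Subgroup E).map E.subtype) := Q.2.map _
  obtain ⟨P', hP'⟩ := hQp.exists_le_sylow
  obtain ⟨g, hg⟩ := MulAction.exists_smul_eq G P P'
  have hQP : ∀ y : E, y ∈ (Q : Subgroup E) → g⁻¹ * (y : G) * g ∈ (P : Subgroup G) := by
    intro y hy
    have h1 : (y : G) ∈ (P' : Subgroup G) := hP' ⟨y, hy, rfl⟩
    rw [← hg] at h1
    obtain ⟨z, hz, hzy⟩ := h1
    have h2 : g * z * g⁻¹ = (y : G) := hzy
    rw [← h2]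
    have : g⁻¹ * (g * z * g⁻¹) * g = z := by group
    rwa [this]
  have hcommQ : ∀ y : E, y ∈ D → y ∈ (Q : Subgroup E) → ∀ z : E, z ∈ (Q : Subgroup E) → y * z = z * y := by
    intro y hyD hyQ z hzQ
    apply Subtype.ext
    have h1 := hcent (g⁻¹ * (y : G) * g) ⟨hQP y hyQ, by
      have := hN.conj_mem _ ((hmemD y).mp hyD) g⁻¹
      simpa using this⟩ _ (hQP z hzQ)
    have h2 : g⁻¹ * ((y : G) * z) * g = g⁻¹ * ((z : G) * y) * g := by
      calc g⁻¹ * ((y : G) * z) * g = (g⁻¹ * (y : G) * g) * (g⁻¹ * (z : G) * g) := by group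
        _ = _ := h1
        _ = _ := by group
    have h3 : (y : G) * z = z * y := mul_left_cancel (mul_right_cancel h2)
    exact h3
  have hxQ : Subgroup.zpowers x ⊔ (Q : Subgroup E) = ⊤ := hsup _ ⟨j, hj⟩
  have hxn : (Subgroup.zpowers x).Normal := by
    constructor
    intro n hn e
    have h1 : n ∈ Subgroup.center E := (Subgroup.zpowers_le.mpr hxc) hn
    rw [Subgroup.mem_center_iff.mp h1 e, mul_inv_cancel_right]
    exact hn
  have hDcent : ∀ d ∈ D, ∀ e : E, d * e = e * d := by
    intro d hd e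
    have hzc : ∀ z ∈ Subgroup.zpowers x, ∀ w : E, z * w = w * z := by
      intro z hz w
      have h1 : z ∈ Subgroup.center E := (Subgroup.zpowers_le.mpr hxc) hz
      exact (Subgroup.mem_center_iff.mp h1 w).symm
    obtain ⟨z, hz, y, hy, hzy⟩ := Subgroup.mem_sup_of_normal_left.mp
      (show d ∈ Subgroup.zpowers x ⊔ (Q : Subgroup E) by rw [hxQ]; exact Subgroup.mem_top _)
    obtain ⟨w, hw, v, hv, hwv⟩ := Subgroup.mem_sup_of_normal_left.mp
      (show e ∈ Subgroup.zpowers x ⊔ (Q : Subgroup E) by rw [hxQ]; exact Subgroup.mem_top _)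
    have hyD : y ∈ D := by
      have h1 : y = z⁻¹ * d := by rw [← hzy]; group
      rw [h1]
      exact D.mul_mem (D.inv_mem ((Subgroup.zpowers_le.mpr hxD) hz)) hd
    rw [← hzy, ← hwv]
    have h1 := hcommQ y hyD hy v hv
    have h2 := hzc z hz
    have h3 := hzc w hw
    calc z * y * (w * v) = z * (y * w) * v := by group
      _ = z * (w * y) * v := by rw [h3 y]
      _ = (z * w) * (y * v) := by group
      _ = (w * z) * (v * y) := by rw [h1, h2 w]
      _ = w * (z * v) * y := by group
      _ = w * (v * z) * y := by rw [h2 v]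
      _ = w * v * (z * y) := by group
  subst hD
  have hφ1 : φ 1 = 1 := Cfsg.Agent.Char.BI.irr_comm_degree (A := N.subgroupOf E)
    (fun a b => Subtype.ext (hDcent (a : E) a.2 (b : E))) hφ
  have hφc := isCharacter_of_isIrr hφ
  let R : N.subgroupOf E →* ℂˣ := MonoidHom.toHomUnits (linHom hφc hφ1)
  have hR : ∀ d, ((R d : ℂˣ) : ℂ) = φ d := fun d => rfl
  -- the abelian group
  have hAcomm : ∀ a b : ↥((P : Subgroup G) ⊓ N), a * b = b * a := fun a b =>
    Subtype.ext (hcent a a.2 b b.2.1)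
  letI : CommGroup ↥((P : Subgroup G) ⊓ N) := { (inferInstance : Group ↥((P : Subgroup G) ⊓ N)) with
    mul_comm := hAcomm }
  let κ : ↥(N.subgroupOf E ⊓ (Q : Subgroup E)) →* ↥((P : Subgroup G) ⊓ N) :=
    { toFun := fun y => ⟨g⁻¹ * ((y : E) : G) * g, hQP y y.2.2, by
        have := hN.conj_mem _ ((hmemD y).mp y.2.1) g⁻¹
        simpa using this⟩
      map_one' := Subtype.ext (by simp)
      map_mul' := fun a b => Subtype.ext (by
        simp only [Subgroup.coe_mul]
        group) }
  have hκ : Function.Injective κ := by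
    intro a b hab
    have h1 : g⁻¹ * ((a : E) : G) * g = g⁻¹ * ((b : E) : G) * g := congrArg (fun z : ↥((P : Subgroup G) ⊓ N) => (z : G)) hab
    exact Subtype.ext (Subtype.ext (mul_left_cancel (mul_right_cancel h1)))
  obtain ⟨F, hF⟩ := exists_extend_hom κ hκ (R.comp (Subgroup.inclusion inf_le_left))
  obtain ⟨μ, hμ, hμ1, hμF⟩ := hlin (fun a => ((F a : ℂˣ) : ℂ))
    (isCharacter_of_hom ((Units.coeHom ℂ).comp F)) (by simp)
  let S : ↥(Q : Subgroup E) →* ℂˣ := (MonoidHom.toHomUnits (linHom hμ hμ1)).comp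
    { toFun := fun y => ⟨g⁻¹ * ((y : E) : G) * g, hQP y y.2⟩
      map_one' := Subtype.ext (by simp)
      map_mul' := fun a b => Subtype.ext (by
        simp only [Subgroup.coe_mul]
        group) }
  obtain ⟨F2, hF2, -⟩ := exists_glue_hom (N.subgroupOf E) (Q : Subgroup E) hDQ R S (by
      intro y hn hq'
      have h1 := hF ⟨y, hn, hq'⟩
      have h2 := hμF (κ ⟨y, hn, hq'⟩)
      apply Units.ext
      have h3 : ((S ⟨y, hq'⟩ : ℂˣ) : ℂ) = μ ⟨g⁻¹ * (y : G) * g, hQP y hq'⟩ := rfl
      rw [h3]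
      have h4 : μ ⟨g⁻¹ * (y : G) * g, hQP y hq'⟩ = ((F (κ ⟨y, hn, hq'⟩) : ℂˣ) : ℂ) := h2
      rw [h4, h1]
      rfl) (by
      intro e _ n
      congr 1
      apply Subtype.ext
      change e * (n : E) * e⁻¹ = n
      rw [← hDcent n n.2 e, mul_inv_cancel_right])
  refine ⟨indFun E (fun e => ((F2 e : ℂˣ) : ℂ)), m, indFun_isCharacter E _
    (isCharacter_of_hom ((Units.coeHom ℂ).comp F2)), hm, ?_⟩
  rw [classInner_indFun_restrict_inv N E hinv, hEN, Subgroup.index_top, Nat.cast_one, one_mul]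
  have h5 : (fun x : N.subgroupOf E => ((F2 x : ℂˣ) : ℂ)) = φ := by
    funext y
    rw [hF2, hR]
  rw [h5, Cfsg.Agent.Char.classInner_conj_symm, hmφ, Complex.conj_natCast]

end S0897

end Cfsg.Agent.Char.DE
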