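import Cfsg.Agent.Char.FrobTI
import Cfsg.Agent.S0170
import Cfsg.Agent.S0187

/-!
# Abelian TI subgroups with Frobenius normalizer (owner: helper15)
-/

set_option autoImplicit false

namespace Cfsg.Agent.Char.FT

open Cfsg Cfsg.Agent.Char Cfsg.Agent.CharBase
open scoped ComplexConjugate

universe u

/-- If all nonprincipal irreducible characters of the abelian Frobenius kernel `N` induce the same
character, then all nonidentity elements of `N` are conjugate. -/
theorem conj_of_unique {G : Type u} [Group G] [Fintype G] (N : Subgroup G) [hN : N.Normal]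
    (hC : ∀ n ∈ N, n ≠ 1 → Subgroup.centralizer ({n} : Set G) ≤ N)
    (hab : ∀ a ∈ N, ∀ b ∈ N, a * b = b * a) {χ : G → ℂ} (hχ : IsIrrCharacter G χ)
    (hker : ∃ n ∈ N, χ n ≠ χ 1)
    (hun : ∀ φ : N → ℂ, IsIrrCharacter N φ → φ ≠ (fun _ => 1) → indFun N φ = χ) :
    Nat.card N = N.index + 1 ∧ ∀ x ∈ N, x ≠ 1 → ∀ y ∈ N, y ≠ 1 → IsConj x y := by
  classical
  have := Fintype.ofFinite N
  have : Fintype (IrrCharacter N) := Fintype.ofFinite _
  have hχc := isCharacter_of_isIrr hχ
  have hlin : ∀ φ : IrrCharacter N, (φ : N → ℂ) 1 = 1 := (Cfsg.Agent.S0187.result (G := N)).mp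
    (fun a b => Subtype.ext (hab a a.2 b b.2))
  let one : IrrCharacter N := ⟨fun _ => 1, isIrrCharacter_one⟩
  have hcardIrr : Fintype.card (IrrCharacter N) = Nat.card N := by
    have h1 := sum_sq_degree (G := N)
    have h2 : ∑ φ : IrrCharacter N, (φ : N → ℂ) 1 ^ 2 = Fintype.card (IrrCharacter N) := by
      rw [Finset.sum_congr rfl fun φ _ => by rw [hlin φ, one_pow], Finset.sum_const, Finset.card_univ,
        nsmul_eq_mul, mul_one]
    rw [h2] at h1
    exact_mod_cast h1
  -- degree of `χ`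
  have hdeg : χ 1 = N.index := by
    obtain ⟨φ, hφ, hφ1, rfl⟩ := Cfsg.Agent.Coh.frobKer_eq_ind N hC hχ hker
    have h1 : φ 1 = 1 := hlin ⟨φ, hφ⟩
    rw [indFun_one_apply, h1, mul_one]
  obtain ⟨m, hm, hsum⟩ := exists_mult_of_isCharacter (isCharacter_restrict hχc N)
  have hm1 : ∀ φ : IrrCharacter N, φ ≠ one → m φ = 1 := by
    intro φ hφ
    have h1 := hm φ
    rw [← frobenius_reciprocity' N φ χ (isClassFunction_of_isCharacter hχc),
      hun φ φ.2 (fun h => hφ (Subtype.ext h)), classInner_self_of_irr hχ] at h1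
    exact_mod_cast h1.symm
  have hge : Nat.card N - 1 ≤ N.index := by
    have h1 := congrFun hsum 1
    rw [Finset.sum_apply] at h1
    have h2 : (N.index : ℂ) = ((∑ φ, m φ : ℕ) : ℂ) := by
      rw [← hdeg]
      push_cast
      refine Eq.trans ?_ (h1.trans (Finset.sum_congr rfl fun φ _ => ?_))
      · simp
      · rw [Pi.smul_apply, hlin, nsmul_eq_mul, mul_one]
    have h3 : N.index = ∑ φ, m φ := by exact_mod_cast h2
    rw [h3, ← Finset.add_sum_erase _ _ (Finset.mem_univ one),
      Finset.sum_congr rfl fun φ hφ => hm1 φ (Finset.ne_of_mem_erase hφ), Finset.sum_const,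
      Finset.card_erase_of_mem (Finset.mem_univ _), Finset.card_univ, hcardIrr, smul_eq_mul, mul_one]
    omega
  -- classes
  have hB : (Finset.univ.filter (fun x : G => x ∈ N ∧ x ≠ 1)).card = Nat.card N - 1 := by
    have h1 : (Finset.univ.filter (fun x : G => x ∈ N ∧ x ≠ 1))
        = (Finset.univ.filter (fun x : G => x ∈ N)).erase 1 := by
      ext x
      simp only [Finset.mem_filter, Finset.mem_univ, true_and, Finset.mem_erase]
      tauto
    rw [h1, Finset.card_erase_of_mem (by simp [N.one_mem])]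
    congr 1
    rw [Nat.card_eq_fintype_card, ← Fintype.card_subtype]
  have hclass : ∀ n ∈ N, n ≠ 1 →
      Finset.univ.filter (fun x : G => IsConj n x) = Finset.univ.filter (fun x : G => x ∈ N ∧ x ≠ 1) ∧
      N.index ≤ Nat.card N - 1 := by
    intro n hn hn1
    have h1 : N.index ≤ (Finset.univ.filter (fun x : G => IsConj n x)).card := by
      rw [card_filter_isConj]
      exact Nat.le_of_dvd (Nat.pos_of_ne_zero Subgroup.index_ne_zero_of_finite)
        (Subgroup.index_dvd_of_le (hC n hn hn1))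
    have h2 : Finset.univ.filter (fun x : G => IsConj n x) ⊆ Finset.univ.filter (fun x : G => x ∈ N ∧ x ≠ 1) := by
      intro x hx
      rw [Finset.mem_filter] at hx ⊢
      refine ⟨Finset.mem_univ _, ?_⟩
      obtain ⟨c, hc⟩ := isConj_iff.mp hx.2
      rw [← hc]
      refine ⟨hN.conj_mem n hn c, fun h => hn1 ?_⟩
      rwa [mul_inv_eq_iff_eq_mul, one_mul, mul_eq_left] at h
    have h3 := Finset.card_le_card h2
    rw [hB] at h3
    refine ⟨Finset.eq_of_subset_of_card_le h2 (by rw [hB]; omega), by omega⟩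
  obtain ⟨n0, hn0, hn01⟩ := hker
  have hn0' : n0 ≠ 1 := by rintro rfl; exact hn01 rfl
  have hpos : 0 < Nat.card N := Nat.card_pos
  refine ⟨by have := (hclass n0 hn0 hn0').2; omega, fun x hx hx1 y hy hy1 => ?_⟩
  have h1 := (hclass x hx hx1).1
  have h2 : y ∈ Finset.univ.filter (fun z : G => IsConj x z) := by
    rw [h1, Finset.mem_filter]
    exact ⟨Finset.mem_univ _, hy, hy1⟩
  exact (Finset.mem_filter.mp h2).2

section TI

variable {G : Type u} [Group G] [Fintype G] (K : Subgroup G)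

/-- S0851. -/
theorem tifn_exceptional
    (hTI : ∀ g : G, g ∉ Subgroup.normalizer (K : Set G) → ∀ k ∈ K, g * k * g⁻¹ ∈ K → k = 1)
    (hC : ∀ k ∈ K, k ≠ 1 → Subgroup.centralizer ({k} : Set G) ≤ K)
    (hab : ∀ a ∈ K, ∀ b ∈ K, a * b = b * a) (R : Type u)
    (toFun : R → IrrCharacter ↥(Subgroup.normalizer (K : Set G))) (hinj : Function.Injective toFun)
    (hR : ∀ χ : IrrCharacter ↥(Subgroup.normalizer (K : Set G)), (∃ r, toFun r = χ) ↔
      ∃ k : ↥(Subgroup.normalizer (K : Set G)), (k : G) ∈ K ∧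
        (χ : ↥(Subgroup.normalizer (K : Set G)) → ℂ) k ≠ (χ : ↥(Subgroup.normalizer (K : Set G)) → ℂ) 1) :
    (Nat.card R = 1 ∧ ∃ p : ℕ, p.Prime ∧ IsElementaryAbelian p K ∧ Nat.card K = (KN K).index + 1) ∨
    ∃ (ε : ℂ) (f : R → IrrCharacter G), (ε = 1 ∨ ε = -1) ∧ Function.Injective f ∧
      ∀ χ ξ, indFun (Subgroup.normalizer (K : Set G))
        ((toFun χ : ↥(Subgroup.normalizer (K : Set G)) → ℂ) - (toFun ξ : ↥(Subgroup.normalizer (K : Set G)) → ℂ))
        = ε • ((f χ : G → ℂ) - (f ξ : G → ℂ)) := by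
  classical
  have hKn : (KN K).Normal := Subgroup.normal_in_normalizer
  have := Fintype.ofFinite ↥(Subgroup.normalizer (K : Set G))
  have hfin : Finite R := Finite.of_injective _ hinj
  have habN : ∀ a ∈ KN K, ∀ b ∈ KN K, a * b = b * a := fun a ha b hb =>
    Subtype.ext (hab a ha b hb)
  rcases lt_trichotomy (Nat.card R) 1 with h | h | h
  · -- no relevant characters
    right
    have h0 : Nat.card R = 0 := by omega
    have hemp : IsEmpty R := by
      rcases Nat.card_eq_zero.mp h0 with h1 | h1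
      · exact h1
      · exact absurd hfin (not_finite_iff_infinite.mpr h1)
    exact ⟨1, fun r => isEmptyElim r, Or.inl rfl, fun a => isEmptyElim a, fun a => isEmptyElim a⟩
  · left
    refine ⟨h, ?_⟩
    obtain ⟨hsub, ⟨r⟩⟩ := (Nat.card_eq_one_iff_unique.mp h)
    obtain ⟨k, hk, hk1⟩ := (hR (toFun r)).mp ⟨r, rfl⟩
    have h1 := conj_of_unique (KN K) (KN_centralizer K hC) habN (toFun r).2 ⟨k, hk, hk1⟩ (by
      intro φ hφ hφ1
      have h2 : indFun (KN K) φ ∈ inducedIrrAbove (KN K) ⊥ := ⟨φ, hφ, hφ1, by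
        intro a ha
        rw [Subgroup.mem_bot] at ha
        rw [Subtype.ext (a2 := (1 : KN K)) ha], rfl⟩
      rw [Cfsg.Agent.Coh.frobKer_above_eq (KN K) (KN_centralizer K hC)] at h2
      obtain ⟨s, hs⟩ := (hR ⟨_, h2.1⟩).mpr (by
        obtain ⟨n, hn, hn1⟩ := h2.2
        exact ⟨n, hn, hn1⟩)
      rw [hsub.elim s r] at hs
      exact (congrArg Subtype.val hs).symm)
    obtain ⟨h2, h3⟩ := h1
    have hcK : Nat.card (KN K) = Nat.card K := by
      apply Nat.card_congr
      exact (Subgroup.subgroupOfEquivOfLe Subgroup.le_normalizer).toEquiv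
    rw [hcK] at h2
    have hk1' : k ≠ 1 := by rintro rfl; exact hk1 rfl
    have hne : Nat.card K ≠ 1 := by
      intro h4
      have h5 : (k : G) ∈ (⊥ : Subgroup G) := (Subgroup.card_eq_one.mp h4) ▸ hk
      exact hk1' (Subtype.ext h5)
    obtain ⟨p, hp, hpd⟩ := Nat.exists_prime_and_dvd hne
    have : Fact p.Prime := ⟨hp⟩
    obtain ⟨x, hx⟩ := exists_prime_orderOf_dvd_card' p hpd
    refine ⟨p, hp, ⟨⟨⟨fun a b => Subtype.ext (hab a a.2 b b.2)⟩⟩, ?_⟩, h2⟩
    intro y hy
    by_cases hy1 : y = 1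
    · rw [hy1, one_pow]
    · have hxp : (x : G) ^ p = 1 := by
        have h4 := pow_orderOf_eq_one x
        rw [hx] at h4
        simpa using congrArg Subtype.val h4
      have hx1 : (x : G) ≠ 1 := by
        intro h4
        have h5 : x = 1 := Subtype.ext h4
        rw [h5, orderOf_one] at hx
        exact hp.one_lt.ne hx
      obtain ⟨c, hc⟩ := isConj_iff.mp (h3 ⟨x, Subgroup.le_normalizer x.2⟩ x.2
        (fun h4 => hx1 (congrArg Subtype.val h4)) ⟨y, Subgroup.le_normalizer hy⟩ hy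
        (fun h4 => hy1 (congrArg Subtype.val h4)))
      have hc' : (c : G) * x * (c : G)⁻¹ = y := by simpa using congrArg Subtype.val hc
      rw [← hc', conj_pow, hxp]
      group
  · right
    let e : R ≃ Fin (Nat.card R) := Finite.equivFin R
    have hrel : ∀ r : R, Rel K (toFun r) := fun r => ⟨(toFun r).2, (hR (toFun r)).mp ⟨r, rfl⟩⟩
    have hdeg : ∀ r : R, (toFun r : ↥(Subgroup.normalizer (K : Set G)) → ℂ) 1 = (KN K).index := by
      intro r
      obtain ⟨k, hk, hk1⟩ := (hrel r).2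
      obtain ⟨φ, hφ, hφ1, hφe⟩ := Cfsg.Agent.Coh.frobKer_eq_ind (KN K) (KN_centralizer K hC)
        (toFun r).2 ⟨k, hk, hk1⟩
      rw [hφe, indFun_one_apply]
      have := Fintype.ofFinite (KN K)
      have hlin : φ 1 = 1 := (Cfsg.Agent.S0187.result (G := KN K)).mp
        (fun a b => Subtype.ext (habN a a.2 b b.2)) ⟨φ, hφ⟩
      rw [hlin, mul_one]
    obtain ⟨ε, hε, θ, hθ, hθinj, hθe⟩ := Cfsg.Agent.S0170.result (K : Set G) Subgroup.le_normalizer hTI
      (Nat.card R) (by omega) (fun i => (toFun (e.symm i) : ↥(Subgroup.normalizer (K : Set G)) → ℂ))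
      (fun i => (toFun (e.symm i)).2) (fun i j hij => e.symm.injective (hinj (Subtype.ext hij)))
      (fun i x hx => (hrel _).vanish hC hx) (fun i j => by rw [hdeg, hdeg])
    refine ⟨ε, fun r => ⟨θ (e r), hθ _⟩, hε, ?_, ?_⟩
    · intro r s hrs
      exact e.injective (hθinj (congrArg Subtype.val hrs))
    · intro r s
      have h1 := hθe (e r) (e s)
      simp only [Equiv.symm_apply_apply] at h1
      rw [indFun_sub]
      exact h1

end TI

end Cfsg.Agent.Char.FT
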