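import Cfsg.Agent.Char.Induced
import Mathlib.GroupTheory.GroupAction.Quotient
import Mathlib.Algebra.Group.Subgroup.Pointwise

/-!
# Double coset sums and Mackey type formulas (owner: helper15)
-/

set_option autoImplicit false

namespace Cfsg.Agent.Char

open scoped ComplexConjugate
open Cfsg

universe u

variable {G : Type u} [Group G]

/-- The conjugate `z K z⁻¹` as a subgroup. -/
def cjSub (K : Subgroup G) (z : G) : Subgroup G := K.map (MulAut.conj z).toMonoidHom

theorem mem_cjSub {K : Subgroup G} {z a : G} : a ∈ cjSub K z ↔ z⁻¹ * a * z ∈ K := by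
  unfold cjSub
  rw [Subgroup.mem_map]
  constructor
  · rintro ⟨k, hk, rfl⟩
    have : z⁻¹ * (MulAut.conj z).toMonoidHom k * z = k := by
      change z⁻¹ * (z * k * z⁻¹) * z = k
      group
    rwa [this]
  · intro h
    refine ⟨_, h, ?_⟩
    change z * (z⁻¹ * a * z) * z⁻¹ = a
    group

theorem card_cjSub (K : Subgroup G) (z : G) : Nat.card (cjSub K z) = Nat.card K := by
  unfold cjSub
  exact Nat.card_congr (K.equivMapOfInjective _ (MulAut.conj z).injective).toEquiv.symm

/-- `H × K` acting on `G` by `(h, k) • z = h z k⁻¹`; orbits are the double cosets. -/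
@[reducible] def dblAct (H K : Subgroup G) : MulAction (H × K) G where
  smul p z := (p.1 : G) * z * (p.2 : G)⁻¹
  one_smul z := by
    change ((1 : H) : G) * z * ((1 : K) : G)⁻¹ = z
    simp
  mul_smul p q z := by
    change ((p.1 * q.1 : H) : G) * z * ((p.2 * q.2 : K) : G)⁻¹
      = (p.1 : G) * ((q.1 : G) * z * (q.2 : G)⁻¹) * (p.2 : G)⁻¹
    push_cast
    group

theorem dblAct_smul (H K : Subgroup G) (p : H × K) (z : G) :
    (dblAct H K).toSMul.smul p z = (p.1 : G) * z * (p.2 : G)⁻¹ := rfl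

theorem card_dbl_stabilizer (H K : Subgroup G) (z : G) :
    letI := dblAct H K
    Nat.card (MulAction.stabilizer (H × K) z) = Nat.card (H ⊓ cjSub K z : Subgroup G) := by
  let _ := dblAct H K
  refine Nat.card_congr
    { toFun := fun p => ⟨p.1.1, p.1.1.2, ?_⟩
      invFun := fun u => ⟨(⟨u.1, u.2.1⟩, ⟨z⁻¹ * u.1 * z, mem_cjSub.mp u.2.2⟩), ?_⟩
      left_inv := fun p => ?_
      right_inv := fun u => ?_ }
  · refine mem_cjSub.mpr ?_
    have h := p.2
    rw [MulAction.mem_stabilizer_iff] at h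
    have h2 : (p.1.1 : G) * z * (p.1.2 : G)⁻¹ = z := h
    have h3 : z⁻¹ * (p.1.1 : G) * z = (p.1.2 : G) := by
      rw [mul_inv_eq_iff_eq_mul] at h2
      rw [mul_assoc, h2]
      group
    rw [h3]
    exact p.1.2.2
  · rw [MulAction.mem_stabilizer_iff]
    change u.1 * z * (z⁻¹ * u.1 * z)⁻¹ = z
    group
  · apply Subtype.ext
    have h := p.2
    rw [MulAction.mem_stabilizer_iff] at h
    have h2 : (p.1.1 : G) * z * (p.1.2 : G)⁻¹ = z := h
    have h3 : z⁻¹ * (p.1.1 : G) * z = (p.1.2 : G) := by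
      rw [mul_inv_eq_iff_eq_mul] at h2
      rw [mul_assoc, h2]
      group
    ext
    · rfl
    · exact h3
  · rfl

/-- **Double coset sum**: a function constant on double cosets `H z K`, weighted by
`|H ∩ zKz⁻¹| / (|H||K|)`, sums over the group to its sum over the double cosets. -/
theorem sum_dblCoset [Fintype G] (H K : Subgroup G) (F : G → ℂ)
    (hF : ∀ (h : H) (k : K) (z : G), F ((h : G) * z * (k : G)⁻¹) = F z)
    [Fintype (@MulAction.orbitRel.Quotient (H × K) G _ (dblAct H K))] :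
    ∑ z : G, ((Nat.card (H ⊓ cjSub K z : Subgroup G) : ℂ) / (Nat.card H * Nat.card K)) * F z
      = ∑ ω : (@MulAction.orbitRel.Quotient (H × K) G _ (dblAct H K)), F ω.out := by
  classical
  let _ := dblAct H K
  have hH := card_ne_zero_complex H
  have hK := card_ne_zero_complex K
  have : Fintype (H × K) := Fintype.ofFinite _
  -- split the sum over orbits
  rw [← Equiv.sum_comp (MulAction.selfEquivSigmaOrbits (H × K) G).symm, Fintype.sum_sigma]
  refine Finset.sum_congr rfl fun ω _ => ?_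
  have horb : ∀ y : MulAction.orbit (H × K) ω.out,
      ((Nat.card (H ⊓ cjSub K ((MulAction.selfEquivSigmaOrbits (H × K) G).symm ⟨ω, y⟩) :
        Subgroup G) : ℂ) / (Nat.card H * Nat.card K)) *
        F ((MulAction.selfEquivSigmaOrbits (H × K) G).symm ⟨ω, y⟩)
      = ((Nat.card (H ⊓ cjSub K ω.out : Subgroup G) : ℂ) / (Nat.card H * Nat.card K))
        * F ω.out := by
    intro y
    have e1 : (MulAction.selfEquivSigmaOrbits (H × K) G).symm ⟨ω, y⟩ = (y : G) := rfl
    rw [e1]
    obtain ⟨y, p, hp⟩ := y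
    have hy : y = (p.1 : G) * ω.out * (p.2 : G)⁻¹ := hp.symm
    simp only
    rw [hy, hF]
    congr 3
    have c1 := card_dbl_stabilizer H K ω.out
    have c2 := card_dbl_stabilizer H K ((p.1 : G) * ω.out * (p.2 : G)⁻¹)
    rw [← c1, ← c2]
    have e2 : (p.1 : G) * ω.out * (p.2 : G)⁻¹ = p • ω.out := rfl
    rw [e2]
    exact Nat.card_congr (MulAction.stabilizerEquivStabilizer (g := p) rfl).toEquiv.symm
  rw [Finset.sum_congr rfl fun y _ => horb y, Finset.sum_const, Finset.card_univ, nsmul_eq_mul,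
    ← mul_assoc]
  have hcard : (Fintype.card (MulAction.orbit (H × K) ω.out) : ℂ)
      * (Nat.card (H ⊓ cjSub K ω.out : Subgroup G) : ℂ) = Nat.card H * Nat.card K := by
    rw [← card_dbl_stabilizer H K ω.out]
    have h := MulAction.card_orbit_mul_card_stabilizer_eq_card_group (H × K) ω.out
    have h' : Fintype.card (MulAction.orbit (H × K) ω.out)
        * Nat.card (MulAction.stabilizer (H × K) ω.out) = Nat.card H * Nat.card K := by
      rw [← Nat.card_prod, Nat.card_eq_fintype_card (α := H × K), ← h,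
        Nat.card_eq_fintype_card (α := MulAction.stabilizer (H × K) ω.out)]
    exact_mod_cast h'
  rw [← mul_div_assoc, hcard, div_self (mul_ne_zero hH hK), one_mul]

/-- Inducing from conjugate subgroups (constant function). -/
theorem indFun_one_cjSub [Fintype G] (U : Subgroup G) (z : G) :
    indFun (cjSub U z) (fun _ => 1) = indFun U (fun _ => 1) := by
  classical
  funext g
  simp only [indFun, card_cjSub]
  congr 1
  refine Fintype.sum_equiv (Equiv.mulRight z) _ _ fun x => ?_
  simp only [Equiv.coe_mulRight, extendByZero_eq_dite]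
  have : (x⁻¹ * g * x ∈ cjSub U z) ↔ ((x * z)⁻¹ * g * (x * z) ∈ U) := by
    rw [mem_cjSub]
    have e : z⁻¹ * (x⁻¹ * g * x) * z = (x * z)⁻¹ * g * (x * z) := by group
    rw [e]
  by_cases h : x⁻¹ * g * x ∈ cjSub U z
  · rw [dif_pos h, dif_pos (this.mp h)]
  · rw [dif_neg h, dif_neg (fun hc => h (this.mpr hc))]

theorem cjSub_dbl (H K : Subgroup G) (h : H) (k : K) (z : G) :
    H ⊓ cjSub K ((h : G) * z * (k : G)⁻¹) = cjSub (H ⊓ cjSub K z) (h : G) := by
  ext a
  rw [Subgroup.mem_inf, mem_cjSub, mem_cjSub, Subgroup.mem_inf, mem_cjSub]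
  constructor
  · rintro ⟨h1, h2⟩
    refine ⟨H.mul_mem (H.mul_mem (H.inv_mem h.2) h1) h.2, ?_⟩
    have := K.mul_mem (K.mul_mem (K.inv_mem k.2) h2) k.2
    have e : (k : G)⁻¹ * (((h : G) * z * (k : G)⁻¹)⁻¹ * a * ((h : G) * z * (k : G)⁻¹)) * k
        = z⁻¹ * ((h : G)⁻¹ * a * h) * z := by group
    rwa [e] at this
  · rintro ⟨h1, h2⟩
    refine ⟨?_, ?_⟩
    · have := H.mul_mem (H.mul_mem h.2 h1) (H.inv_mem h.2)
      have e : (h : G) * ((h : G)⁻¹ * a * h) * (h : G)⁻¹ = a := by group
      rwa [e] at this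
    · have := K.mul_mem (K.mul_mem k.2 h2) (K.inv_mem k.2)
      have e : (k : G) * (z⁻¹ * ((h : G)⁻¹ * a * h) * z) * (k : G)⁻¹
        = ((h : G) * z * (k : G)⁻¹)⁻¹ * a * ((h : G) * z * (k : G)⁻¹) := by group
      rwa [e] at this

/-- The product of two permutation characters as a sum over double cosets. -/
theorem indFun_one_mul_indFun_one [Fintype G] (H K : Subgroup G)
    [Fintype (@MulAction.orbitRel.Quotient (H × K) G _ (dblAct H K))] :
    indFun H (fun _ => 1) * indFun K (fun _ => 1)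
      = ∑ ω : (@MulAction.orbitRel.Quotient (H × K) G _ (dblAct H K)),
        indFun (H ⊓ cjSub K ω.out) (fun _ => 1) := by
  classical
  funext g
  rw [Finset.sum_apply]
  have hF : ∀ (h : H) (k : K) (z : G),
      (fun z => indFun (H ⊓ cjSub K z) (fun _ => 1) g) ((h : G) * z * (k : G)⁻¹)
        = (fun z => indFun (H ⊓ cjSub K z) (fun _ => 1) g) z := by
    intro h k z
    simp only
    rw [cjSub_dbl, indFun_one_cjSub]
  rw [← sum_dblCoset H K (fun z => indFun (H ⊓ cjSub K z) (fun _ => 1) g) hF]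
  have hH := card_ne_zero_complex H
  have hK := card_ne_zero_complex K
  rw [Pi.mul_apply]
  have e1 : ∀ z : G, ((Nat.card (H ⊓ cjSub K z : Subgroup G) : ℂ) / (Nat.card H * Nat.card K)) *
      indFun (H ⊓ cjSub K z) (fun _ => 1) g
      = (Nat.card H : ℂ)⁻¹ * (Nat.card K : ℂ)⁻¹ *
        ∑ x : G, extendByZero H (fun _ => 1) (x⁻¹ * g * x)
          * extendByZero K (fun _ => 1) ((x * z)⁻¹ * g * (x * z)) := by
    intro z
    have hU := card_ne_zero_complex (H ⊓ cjSub K z)
    have e2 : indFun (H ⊓ cjSub K z) (fun _ => 1) g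
        = (Nat.card (H ⊓ cjSub K z : Subgroup G) : ℂ)⁻¹ *
          ∑ x : G, extendByZero H (fun _ => 1) (x⁻¹ * g * x)
          * extendByZero K (fun _ => 1) ((x * z)⁻¹ * g * (x * z)) := by
      simp only [indFun]
      congr 1
      refine Finset.sum_congr rfl fun x _ => ?_
      simp only [extendByZero_eq_dite]
      have : (x⁻¹ * g * x ∈ H ⊓ cjSub K z)
          ↔ (x⁻¹ * g * x ∈ H ∧ (x * z)⁻¹ * g * (x * z) ∈ K) := by
        rw [Subgroup.mem_inf, mem_cjSub]
        have e : z⁻¹ * (x⁻¹ * g * x) * z = (x * z)⁻¹ * g * (x * z) := by group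
        rw [e]
      by_cases h1 : x⁻¹ * g * x ∈ H
      · by_cases h2 : (x * z)⁻¹ * g * (x * z) ∈ K
        · rw [dif_pos (this.mpr ⟨h1, h2⟩), dif_pos h1, dif_pos h2, one_mul]
        · rw [dif_neg (fun hc => h2 (this.mp hc).2), dif_neg h2, mul_zero]
      · rw [dif_neg (fun hc => h1 (this.mp hc).1), dif_neg h1, zero_mul]
    rw [e2]
    field_simp
  rw [Finset.sum_congr rfl fun z _ => e1 z, ← Finset.mul_sum, Finset.sum_comm]
  have e3 : ∀ x : G, ∑ z : G, extendByZero H (fun _ => 1) (x⁻¹ * g * x)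
          * extendByZero K (fun _ => 1) ((x * z)⁻¹ * g * (x * z))
      = extendByZero H (fun _ => 1) (x⁻¹ * g * x)
        * ∑ y : G, extendByZero K (fun _ => 1) (y⁻¹ * g * y) := by
    intro x
    rw [← Finset.mul_sum]
    congr 1
    exact Fintype.sum_equiv (Equiv.mulLeft x) _ _ fun z => rfl
  rw [Finset.sum_congr rfl fun x _ => e3 x, ← Finset.sum_mul]
  simp only [indFun]
  ring

end Cfsg.Agent.Char
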