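import Mathlib
import Cfsg.Prelude.Def_Characters
import Cfsg.Agent.Char.BrauerInduction

/-!
# Local forms of the induction theorems of Solomon and Brauer
-/

set_option autoImplicit false

namespace Cfsg.Agent.Char.SL

open Cfsg Cfsg.Agent.Char Cfsg.Agent.Char.BI Cfsg.Agent.CharBase

universe u

section Basic

variable {G : Type u} [Group G]

/-- The frozen form of a `p`-quasi-elementary subgroup. -/
def QE (p : ℕ) (H : Subgroup G) : Prop :=
  ∃ C : Subgroup G, C ≤ H ∧ H ≤ Subgroup.normalizer (C : Set G) ∧ IsCyclic C ∧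
    Nat.Coprime (Nat.card C) p ∧ ∃ k : ℕ, C.relIndex H = p ^ k

theorem qe_of_isQuasiElem [Finite G] {p : ℕ} (hp : p.Prime) {H : Subgroup G}
    (hH : IsQuasiElem p H) : QE p H := by
  have : Fact p.Prime := ⟨hp⟩
  obtain ⟨C, hCH, hcyc, hcop, hnorm, hpow⟩ := hH
  refine ⟨C, hCH, ?_, hcyc, hcop, ?_⟩
  · intro h hh
    rw [Subgroup.mem_normalizer_iff]
    intro c
    constructor
    · exact hnorm h hh c
    · intro hc
      have := hnorm h⁻¹ (H.inv_mem hh) _ hc
      have h2 : h⁻¹ * (h * c * h⁻¹) * h⁻¹⁻¹ = c := by group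
      rwa [h2] at this
  · have hn : (C.subgroupOf H).Normal := by
      refine ⟨fun c hc h => ?_⟩
      rw [Subgroup.mem_subgroupOf] at hc ⊢
      exact hnorm h h.2 c hc
    have h1 : IsPGroup p (H ⧸ C.subgroupOf H) := by
      intro x
      obtain ⟨h, rfl⟩ := QuotientGroup.mk_surjective x
      obtain ⟨k, hk⟩ := hpow h h.2
      refine ⟨k, ?_⟩
      rw [← QuotientGroup.mk_pow, QuotientGroup.eq_one_iff, Subgroup.mem_subgroupOf]
      exact hk
    obtain ⟨k, hk⟩ := IsPGroup.iff_card.mp h1
    exact ⟨k, hk⟩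

/-- Integer combinations of the permutation characters of `p`-quasi-elementary subgroups. -/
def quasiSpanAt (G : Type u) [Group G] (p : ℕ) : AddSubgroup (G → ℤ) :=
  AddSubgroup.closure {f | ∃ H : Subgroup G, IsQuasiElem p H ∧ f = permFix H}

theorem quasiSpanAt_mul [Finite G] (p : ℕ) (f g : G → ℤ) (hf : f ∈ quasiSpanAt G p)
    (hg : g ∈ quasiSpanAt G p) : f * g ∈ quasiSpanAt G p := by
  unfold quasiSpanAt at hf
  induction hf using AddSubgroup.closure_induction with
  | zero => rw [zero_mul]; exact AddSubgroup.zero_mem _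
  | add a b _ _ ha hb => rw [add_mul]; exact AddSubgroup.add_mem _ ha hb
  | neg a _ ha => rw [neg_mul]; exact AddSubgroup.neg_mem _ ha
  | mem f hf =>
    obtain ⟨H, hH, rfl⟩ := hf
    unfold quasiSpanAt at hg
    induction hg using AddSubgroup.closure_induction with
    | zero => rw [mul_zero]; exact AddSubgroup.zero_mem _
    | add a b _ _ ha hb => rw [mul_add]; exact AddSubgroup.add_mem _ ha hb
    | neg a _ ha => rw [mul_neg]; exact AddSubgroup.neg_mem _ ha
    | mem g hg =>
      obtain ⟨K, hK, rfl⟩ := hg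
      have h1 := card_fixedBy_mem (X := (G ⧸ H) × (G ⧸ K)) (quasiSpanAt G p) (by
        rintro ⟨x, y⟩
        apply AddSubgroup.subset_closure
        refine ⟨_, ?_, rfl⟩
        have h2 : IsQuasiElem p (MulAction.stabilizer G x) := by
          induction x using Quotient.inductionOn' with
          | _ a =>
          have h3 : (Quotient.mk'' a : G ⧸ H) = a • ((1 : G) : G ⧸ H) := by
            change ((a : G) : G ⧸ H) = ((a * 1 : G) : G ⧸ H)
            rw [mul_one]
          rw [h3, MulAction.stabilizer_smul_eq_stabilizer_map_conj]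
          have h4 : MulAction.stabilizer G ((1 : G) : G ⧸ H) = H := MulAction.stabilizer_quotient H
          rw [h4]
          exact hH.map _
        refine h2.mono ?_
        intro g hg
        rw [MulAction.mem_stabilizer_iff] at hg ⊢
        exact congrArg Prod.fst hg)
      have h5 : (fun g : G => (Nat.card {x : (G ⧸ H) × (G ⧸ K) // g • x = x} : ℤ)) =
          permFix H * permFix K := by
        funext g
        rw [Pi.mul_apply]
        unfold permFix
        rw [← Nat.cast_mul, ← Nat.card_prod]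
        congr 1
        refine Nat.card_congr ⟨fun x => (⟨x.1.1, congrArg Prod.fst x.2⟩, ⟨x.1.2, congrArg Prod.snd x.2⟩),
          fun y => ⟨(y.1.1, y.2.1), Prod.ext y.1.2 y.2.2⟩, fun _ => rfl, fun _ => rfl⟩
      rwa [h5] at h1

/-- Local Banaschewski lemma. -/
theorem banaschewski_local {S : Type*} [Fintype S] [Nonempty S] (R : AddSubgroup (S → ℤ))
    (hmul : ∀ f ∈ R, ∀ g ∈ R, f * g ∈ R) (p : ℕ) (hp : p.Prime)
    (h : ∀ x : S, ∃ f ∈ R, ¬ (p : ℤ) ∣ f x) :
    ∃ m : ℤ, ¬ (p : ℤ) ∣ m ∧ (fun _ : S => m) ∈ R := by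
  classical
  choose f hf hfx using h
  have hpi : Prime (p : ℤ) := Nat.prime_iff_prime_int.mp hp
  have hz : ∀ (z : ℤ) (g : S → ℤ), g ∈ R → (fun _ : S => z) * g ∈ R := by
    intro z g hg
    have h1 : (fun _ : S => z) * g = z • g := by
      funext x
      simp
    rw [h1]
    exact R.zsmul_mem hg z
  have hprod : ∀ s : Finset S,
      ∃ r ∈ R, ∏ x ∈ s, ((fun _ : S => f x x) - f x) = (fun _ : S => ∏ x ∈ s, f x x) - r := by
    intro s
    induction s using Finset.induction_on with
    | empty =>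
      refine ⟨0, R.zero_mem, ?_⟩
      funext y
      simp
    | insert a s ha ih =>
      obtain ⟨r, hr, hre⟩ := ih
      refine ⟨(fun _ : S => f a a) * r + (fun _ : S => ∏ x ∈ s, f x x) * f a - f a * r, ?_, ?_⟩
      · exact R.sub_mem (R.add_mem (hz _ _ hr) (hz _ _ (hf a))) (hmul _ (hf a) _ hr)
      · rw [Finset.prod_insert ha, hre]
        funext y
        simp only [Pi.mul_apply, Pi.sub_apply, Pi.add_apply, Finset.prod_insert ha]
        ring
  obtain ⟨r, hr, hre⟩ := hprod Finset.univ
  have h2 : ∏ x : S, ((fun _ : S => f x x) - f x) = 0 := by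
    funext y
    rw [Finset.prod_apply]
    apply Finset.prod_eq_zero (Finset.mem_univ y)
    simp
  refine ⟨∏ x : S, f x x, ?_, ?_⟩
  · intro hdvd
    obtain ⟨x, -, hx⟩ := (hpi.dvd_finsetProd_iff _).mp hdvd
    exact hfx x hx
  · rw [h2] at hre
    rw [← sub_eq_zero.mp hre.symm] at hr
    exact hr

/-- **Solomon's induction theorem, local form**. -/
theorem solomon_local (G : Type u) [Group G] [Finite G] (p : ℕ) (hp : p.Prime) :
    ∃ m : ℤ, ¬ (p : ℤ) ∣ m ∧ (fun _ : G => m) ∈ quasiSpanAt G p := by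
  have := Fintype.ofFinite G
  refine banaschewski_local (quasiSpanAt G p) (fun f hf g hg => quasiSpanAt_mul p f g hf hg) p hp (fun x => ?_)
  obtain ⟨H, hH, hx⟩ := exists_quasiElem_not_dvd x p hp
  exact ⟨permFix H, AddSubgroup.subset_closure ⟨H, hH, rfl⟩, hx⟩

/-- Elements of the span as explicit sums. -/
theorem exists_coeff_of_mem [Fintype G] {p : ℕ} {f : G → ℤ} (hf : f ∈ quasiSpanAt G p) :
    ∃ a : Subgroup G → ℤ, (∀ H, a H ≠ 0 → IsQuasiElem p H) ∧
      f = ∑ H : Subgroup G, a H • permFix H := by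
  classical
  unfold quasiSpanAt at hf
  induction hf using AddSubgroup.closure_induction with
  | zero => exact ⟨0, fun H h => absurd rfl h, by simp⟩
  | add a b _ _ ha hb =>
    obtain ⟨c, hc, rfl⟩ := ha
    obtain ⟨d, hd, rfl⟩ := hb
    refine ⟨c + d, fun H h => ?_, by simp [add_smul, Finset.sum_add_distrib]⟩
    by_cases h0 : c H = 0
    · exact hd H (fun h1 => h (by simp [h0, h1]))
    · exact hc H h0
  | neg a _ ha =>
    obtain ⟨c, hc, rfl⟩ := ha
    exact ⟨-c, fun H h => hc H (by simpa using h), by simp⟩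
  | mem f hf =>
    obtain ⟨K, hK, rfl⟩ := hf
    refine ⟨fun H => if H = K then 1 else 0, fun H h => ?_, by simp⟩
    by_cases h0 : H = K
    · exact h0 ▸ hK
    · simp [h0] at h

end Basic

section Elem

/-- A `q`-elementary subgroup (any prime `q`) of a `p`-quasi-elementary group is `p`-elementary. -/
theorem isElementary_of_quasi {G : Type u} [Group G] [Finite G] {p q : ℕ} (hp : p.Prime)
    (hq : q.Prime) (hG : IsQuasiElem p (⊤ : Subgroup G)) (E : Subgroup G)
    (hE : IsElementary q E) : IsElementary p E := by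
  have : Fact p.Prime := ⟨hp⟩
  by_cases hpq : p = q
  · rw [hpq]; exact hE
  obtain ⟨C, -, hcyc, hcop, hnorm, hpow⟩ := hG
  obtain ⟨x, hxc, hxq, k, hk⟩ := hE
  obtain ⟨D, hD⟩ : ∃ D : Subgroup E, D = C.subgroupOf E := ⟨_, rfl⟩
  have hmemD : ∀ e : E, e ∈ D ↔ (e : G) ∈ C := by
    intro e; rw [hD, Subgroup.mem_subgroupOf]
  have hDn : D.Normal := by
    refine ⟨fun c hc e => ?_⟩
    rw [hmemD] at hc ⊢
    exact hnorm e (Subgroup.mem_top _) c hc
  have hDcyc : IsCyclic D := by
    have h1 : Function.Injective (E.subtype.comp D.subtype) := by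
      rw [MonoidHom.coe_comp]
      exact Function.Injective.comp E.subtype_injective D.subtype_injective
    have h2 : ∀ d : D, (E.subtype.comp D.subtype) d ∈ C := fun d => (hmemD d).mp d.2
    exact isCyclic_of_injective ((E.subtype.comp D.subtype).codRestrict C h2)
      (fun a b hab => h1 (congrArg (fun c : C => (c : G)) hab))
  obtain ⟨⟨d, hdD⟩, hd⟩ := IsCyclic.exists_generator (α := D)
  have hzd : Subgroup.zpowers d = D := by
    apply le_antisymm
    · rw [Subgroup.zpowers_le]; exact hdD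
    · intro y hy
      obtain ⟨n, hn⟩ := Subgroup.mem_zpowers_iff.mp (hd ⟨y, hy⟩)
      exact Subgroup.mem_zpowers_iff.mpr ⟨n, congrArg Subtype.val hn⟩
  have hDindex : ∃ j : ℕ, D.index = p ^ j := by
    have h1 : IsPGroup p (E ⧸ D) := by
      intro y
      obtain ⟨e, rfl⟩ := QuotientGroup.mk_surjective y
      obtain ⟨j, hj⟩ := hpow e (Subgroup.mem_top _)
      refine ⟨j, ?_⟩
      rw [← QuotientGroup.mk_pow, QuotientGroup.eq_one_iff, hmemD]
      exact hj
    obtain ⟨j, hj⟩ := IsPGroup.iff_card.mp h1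
    exact ⟨j, hj⟩
  obtain ⟨j, hj⟩ := hDindex
  have hsup : D ⊔ Subgroup.zpowers x = ⊤ := by
    rw [← Subgroup.index_eq_one]
    have h1 : (D ⊔ Subgroup.zpowers x).index ∣ p ^ j := by
      rw [← hj]; exact Subgroup.index_dvd_of_le le_sup_left
    have h2 : (D ⊔ Subgroup.zpowers x).index ∣ q ^ k := by
      rw [← hk]; exact Subgroup.index_dvd_of_le le_sup_right
    exact Nat.eq_one_of_dvd_coprimes
      (Nat.Coprime.pow j k ((Nat.coprime_primes hp hq).mpr hpq)) h1 h2
  have hDcomm : ∀ a ∈ D, ∀ b ∈ D, a * b = b * a := by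
    intro a ha b hb
    have := (IsCyclic.commGroup (α := D)).mul_comm ⟨a, ha⟩ ⟨b, hb⟩
    exact congrArg Subtype.val this
  have hdc : d ∈ Subgroup.center E := by
    have h1 : D ⊔ Subgroup.zpowers x ≤ Subgroup.centralizer ({d} : Set E) := by
      rw [sup_le_iff]
      constructor
      · intro y hy
        rw [Subgroup.mem_centralizer_singleton_iff]
        exact hDcomm _ hy _ hdD
      · rw [Subgroup.zpowers_le, Subgroup.mem_centralizer_singleton_iff]
        exact (Subgroup.mem_center_iff.mp hxc d).symm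
    rw [hsup] at h1
    rw [Subgroup.mem_center_iff]
    intro g
    exact Subgroup.mem_centralizer_singleton_iff.mp (h1 (Subgroup.mem_top g))
  refine ⟨d, hdc, ?_, j, by rw [hzd, hj]⟩
  refine Nat.Coprime.coprime_dvd_left ?_ hcop
  have h1 : orderOf d = orderOf ((d : E) : G) := (Subgroup.orderOf_coe d).symm
  rw [h1]
  have h2 : ((d : E) : G) ∈ C := (hmemD d).mp hdD
  have h3 := orderOf_dvd_natCard (⟨_, h2⟩ : C)
  rwa [← Subgroup.orderOf_coe] at h3

/-- `p`-local elementary span: integer combinations of characters induced from `p`-elementary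
subgroups. -/
def elemSpanAt (G : Type u) [Group G] [Fintype G] (p : ℕ) : AddSubgroup (G → ℂ) :=
  AddSubgroup.closure {f | ∃ (E : Subgroup G) (ψ : E → ℂ), IsElementary p E ∧
    IsCharacter E ψ ∧ f = indFun E ψ}

theorem elemSpan_le_of_quasi {G : Type u} [Group G] [Fintype G] {p : ℕ} (hp : p.Prime)
    (hG : IsQuasiElem p (⊤ : Subgroup G)) : elemSpan G ≤ elemSpanAt G p := by
  unfold elemSpan
  rw [AddSubgroup.closure_le]
  rintro f ⟨E, q, ψ, hq, hE, hψ, rfl⟩
  exact AddSubgroup.subset_closure ⟨E, ψ, isElementary_of_quasi hp hq hG E hE, hψ, rfl⟩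

theorem indFun_mem_elemSpanAt {G : Type u} [Group G] [Fintype G] {p : ℕ} (K : Subgroup G)
    [Fintype K] {f : K → ℂ} (hf : f ∈ elemSpanAt K p) :
    indFun K f ∈ elemSpanAt G p := by
  unfold elemSpanAt at hf
  induction hf using AddSubgroup.closure_induction with
  | zero => rw [indFun_zero]; exact AddSubgroup.zero_mem _
  | add a b _ _ ha hb => rw [indFun_add]; exact AddSubgroup.add_mem _ ha hb
  | neg a _ ha => rw [indFun_neg]; exact AddSubgroup.neg_mem _ ha
  | mem f hf =>
    obtain ⟨E, ψ, hE, hψ, rfl⟩ := hf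
    rw [indFun_indFun_map K E ψ]
    apply AddSubgroup.subset_closure
    refine ⟨_, _, ?_, ?_, rfl⟩
    · exact isElementary_of_equiv (E.equivMapOfInjective K.subtype K.subtype_injective) hE
    · exact isCharacter_comp hψ
        (E.equivMapOfInjective K.subtype K.subtype_injective).symm.toMonoidHom

/-- **Brauer's induction theorem, local form**. -/
theorem brauer_local (G : Type u) [Group G] [Fintype G] (p : ℕ) (hp : p.Prime) :
    ∃ m : ℤ, ¬ (p : ℤ) ∣ m ∧ (fun _ : G => (m : ℂ)) ∈ elemSpanAt G p := by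
  obtain ⟨m, hm, hmem⟩ := solomon_local G p hp
  refine ⟨m, hm, ?_⟩
  let Φ : (G → ℤ) →+ (G → ℂ) :=
    { toFun := fun f g => (f g : ℂ)
      map_zero' := by funext g; simp
      map_add' := by intro a b; funext g; simp }
  have h1 : quasiSpanAt G p ≤ (elemSpanAt G p).comap Φ := by
    unfold quasiSpanAt
    rw [AddSubgroup.closure_le]
    rintro f ⟨H, hH, rfl⟩
    change Φ (permFix H) ∈ elemSpanAt G p
    have h2 : Φ (permFix H) = indFun H (1 : H → ℂ) := by
      funext g
      exact permFix_eq_indFun H g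
    rw [h2]
    have := Fintype.ofFinite H
    exact indFun_mem_elemSpanAt H (elemSpan_le_of_quasi hp (isQuasiElem_top hH)
      (one_mem_elemSpan_of_quasi _ H p hp rfl (isQuasiElem_top hH)))
  exact h1 hmem

/-- Elements of the local elementary span as explicit lists. -/
theorem exists_list_of_mem {G : Type u} [Group G] [Fintype G] {p : ℕ} {f : G → ℂ}
    (hf : f ∈ elemSpanAt G p) :
    ∃ l : List ((E : Subgroup G) × ((E → ℂ) × ℤ)),
      (∀ t ∈ l, IsElementary p t.1 ∧ IsCharacter t.1 t.2.1) ∧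
      f = (l.map fun t => (t.2.2 : ℂ) • indFun t.1 t.2.1).sum := by
  unfold elemSpanAt at hf
  induction hf using AddSubgroup.closure_induction with
  | zero => exact ⟨[], by simp, by simp⟩
  | add a b _ _ ha hb =>
    obtain ⟨l₁, h1, rfl⟩ := ha
    obtain ⟨l₂, h2, rfl⟩ := hb
    refine ⟨l₁ ++ l₂, ?_, by simp⟩
    intro t ht
    rcases List.mem_append.mp ht with h | h
    · exact h1 t h
    · exact h2 t h
  | neg a _ ha =>
    obtain ⟨l, h1, rfl⟩ := ha
    refine ⟨l.map fun t => ⟨t.1, (t.2.1, -t.2.2)⟩, ?_, ?_⟩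
    · intro t ht
      obtain ⟨s, hs, rfl⟩ := List.mem_map.mp ht
      exact h1 s hs
    · rw [List.map_map]
      clear h1
      rename_i hx
      clear hx
      induction l with
      | nil => simp
      | cons t l ih =>
        rw [List.map_cons, List.map_cons, List.sum_cons, List.sum_cons, neg_add, ih]
        congr 1
        simp
  | mem f hf =>
    obtain ⟨E, ψ, hE, hψ, rfl⟩ := hf
    refine ⟨[⟨E, (ψ, 1)⟩], ?_, by simp⟩
    intro t ht
    rw [List.mem_singleton] at ht
    subst ht
    exact ⟨hE, hψ⟩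

end Elem

end Cfsg.Agent.Char.SL
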