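import Mathlib
import Cfsg.Prelude.Def_Characters
import Cfsg.Agent.Char.BrauerLinear
import Cfsg.Agent.Char.RepEquiv

/-!
# Brauer's splitting field theorem (owner: helper3)
-/

set_option autoImplicit false
set_option linter.unusedSectionVars false
set_option linter.unusedSimpArgs false
set_option linter.style.haveILetI false

namespace Cfsg.Agent.Char.SF

open Cfsg Cfsg.Agent.CharBase Cfsg.Agent.Char Cfsg.Agent.Char.BI Cfsg.Agent.Char.BL
open scoped ComplexConjugate

universe u v

section Field

variable (K : Type) [Field K] [Algebra K ℂ] {G : Type u} [Group G]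

/-- The characters of representations over `K`. -/
def IsKChar (χ : G → ℂ) : Prop :=
  ∃ (n : ℕ) (σ : Representation K G (Fin n → K)), χ = fun g => algebraMap K ℂ (σ.character g)

/-- The characters of irreducible representations over `K`. -/
def IsKIrr (χ : G → ℂ) : Prop :=
  ∃ (n : ℕ) (σ : Representation K G (Fin n → K)), σ.IsIrreducible ∧
    χ = fun g => algebraMap K ℂ (σ.character g)

variable {K}

/-- Transport of a representation along a linear equivalence. -/
noncomputable def conjK {V W : Type*} [AddCommGroup V] [Module K V] [AddCommGroup W]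
    [Module K W] (ρ : Representation K G V) (e : V ≃ₗ[K] W) : Representation K G W where
  toFun g := e.conj (ρ g)
  map_one' := by ext; simp [LinearEquiv.conj_apply]
  map_mul' x y := by
    simp only [map_mul]
    exact LinearEquiv.conj_comp e (ρ y) (ρ x)

theorem conjK_apply {V W : Type*} [AddCommGroup V] [Module K V] [AddCommGroup W]
    [Module K W] (ρ : Representation K G V) (e : V ≃ₗ[K] W) (g : G) (v : V) :
    conjK ρ e g (e v) = e (ρ g v) := by
  change (e.conj (ρ g)) (e v) = _
  simp [LinearEquiv.conj_apply]

theorem conjK_character {V W : Type*} [AddCommGroup V] [Module K V] [AddCommGroup W]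
    [Module K W] (ρ : Representation K G V) (e : V ≃ₗ[K] W) :
    (conjK ρ e).character = ρ.character := by
  funext g
  exact LinearMap.trace_conj' (ρ g) e

theorem conjK_irreducible {V W : Type*} [AddCommGroup V] [Module K V] [AddCommGroup W]
    [Module K W] (ρ : Representation K G V) (e : V ≃ₗ[K] W) (h : ρ.IsIrreducible) :
    (conjK ρ e).IsIrreducible := by
  let F : Subrepresentation ρ ≃o Subrepresentation (conjK ρ e) :=
    { toFun := fun U => ⟨U.toSubmodule.map e.toLinearMap, by
        rintro g _ ⟨v, hv, rfl⟩
        refine ⟨ρ g v, U.apply_mem_toSubmodule g hv, ?_⟩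
        exact (conjK_apply ρ e g v).symm⟩
      invFun := fun U => ⟨U.toSubmodule.comap e.toLinearMap, by
        intro g v hv
        have := U.apply_mem_toSubmodule g hv
        simp only [LinearEquiv.coe_coe] at this
        rw [conjK_apply] at this
        exact this⟩
      left_inv := fun U => by
        ext v
        simp
      right_inv := fun U => by
        ext v
        simp
      map_rel_iff' := by
        intro U U'
        constructor
        · intro h v hv
          have := h ⟨v, hv, rfl⟩
          obtain ⟨w, hw, hwv⟩ := this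
          have : w = v := e.injective hwv
          subst this
          exact hw
        · rintro h _ ⟨v, hv, rfl⟩
          exact ⟨v, h hv, rfl⟩ }
  exact F.symm.isSimpleOrder

theorem isKChar_of_rep {V : Type v} [AddCommGroup V] [Module K V] [FiniteDimensional K V]
    (ρ : Representation K G V) : IsKChar K (fun g => algebraMap K ℂ (ρ.character g)) := by
  let e : V ≃ₗ[K] (Fin (Module.finrank K V) → K) := (Module.finBasis K V).equivFun
  refine ⟨_, conjK ρ e, ?_⟩
  rw [conjK_character]

theorem isKIrr_of_rep {V : Type v} [AddCommGroup V] [Module K V] [FiniteDimensional K V]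
    (ρ : Representation K G V) (h : ρ.IsIrreducible) :
    IsKIrr K (fun g => algebraMap K ℂ (ρ.character g)) := by
  let e : V ≃ₗ[K] (Fin (Module.finrank K V) → K) := (Module.finBasis K V).equivFun
  refine ⟨_, conjK ρ e, conjK_irreducible ρ e h, ?_⟩
  rw [conjK_character]

/-- Subrepresentations of a subrepresentation are the smaller subrepresentations. -/
noncomputable def subrepIicIsoK {V : Type v} [AddCommGroup V] [Module K V]
    {ρ : Representation K G V} (U : Subrepresentation ρ) :
    Subrepresentation U.toRepresentation ≃o Set.Iic U where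
  toFun X := ⟨⟨X.toSubmodule.map U.toSubmodule.subtype, by
      rintro g _ ⟨v, hv, rfl⟩
      exact ⟨U.toRepresentation g v, X.apply_mem_toSubmodule g hv, rfl⟩⟩, by
      rintro _ ⟨v, _, rfl⟩
      exact v.2⟩
  invFun Y := ⟨Y.1.toSubmodule.comap U.toSubmodule.subtype, by
      intro g v hv
      exact Y.1.apply_mem_toSubmodule g hv⟩
  left_inv X := by
    apply Subrepresentation.toSubmodule_injective
    exact Submodule.comap_map_eq_of_injective U.toSubmodule.injective_subtype _
  right_inv Y := by
    apply Subtype.ext
    apply Subrepresentation.toSubmodule_injective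
    show Submodule.map _ (Submodule.comap _ _) = _
    rw [Submodule.map_comap_subtype]
    exact inf_eq_right.mpr Y.2
  map_rel_iff' {X Y} := by
    constructor
    · intro h x hx
      obtain ⟨y, hy, hxy⟩ := h (show (x : V) ∈ X.toSubmodule.map U.toSubmodule.subtype from ⟨x, hx, rfl⟩)
      have : y = x := Subtype.ext hxy
      rw [← this]; exact hy
    · rintro h _ ⟨x, hx, rfl⟩
      exact ⟨x, h hx, rfl⟩

theorem toRepresentation_isIrreducible_of_isAtomK {V : Type v} [AddCommGroup V] [Module K V]
    {ρ : Representation K G V} (U : Subrepresentation ρ) (hU : IsAtom U) :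
    U.toRepresentation.IsIrreducible := by
  have := (Set.isSimpleOrder_Iic_iff_isAtom).mpr hU
  exact (subrepIicIsoK U).isSimpleOrder_iff.mpr this

theorem exists_isAtomK {V : Type v} [AddCommGroup V] [Module K V] [FiniteDimensional K V]
    (ρ : Representation K G V) (W : Subrepresentation ρ) (hW : W ≠ ⊥) :
    ∃ U : Subrepresentation ρ, IsAtom U ∧ U ≤ W := by
  classical
  have hex : ∃ n : ℕ, ∃ U : Subrepresentation ρ, U ≤ W ∧ U ≠ ⊥ ∧ Module.finrank K U.toSubmodule = n :=
    ⟨_, W, le_rfl, hW, rfl⟩
  obtain ⟨U, hUW, hU0, hUn⟩ := Nat.find_spec hex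
  refine ⟨U, ⟨hU0, fun X hX => ?_⟩, hUW⟩
  by_contra hX0
  have hlt : Module.finrank K X.toSubmodule < Module.finrank K U.toSubmodule := by
    apply Submodule.finrank_lt_finrank_of_lt
    exact lt_of_le_of_ne hX.le (fun h => hX.ne (Subrepresentation.toSubmodule_injective h))
  rw [hUn] at hlt
  exact Nat.find_min hex hlt ⟨X, hX.le.trans hUW, hX0, rfl⟩

theorem character_eq_add_of_isComplK {V : Type v} [AddCommGroup V] [Module K V]
    [FiniteDimensional K V] (ρ : Representation K G V) {U W : Subrepresentation ρ}
    (h : IsCompl U W) : ρ.character = U.toRepresentation.character + W.toRepresentation.character ∧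
      Module.finrank K U.toSubmodule + Module.finrank K W.toSubmodule = Module.finrank K V := by
  have h' : IsCompl U.toSubmodule W.toSubmodule := by
    constructor
    · rw [disjoint_iff]
      have := disjoint_iff.mp h.disjoint
      exact congrArg Subrepresentation.toSubmodule this
    · rw [codisjoint_iff]
      have := codisjoint_iff.mp h.codisjoint
      exact congrArg Subrepresentation.toSubmodule this
  refine ⟨?_, Submodule.finrank_add_eq_of_isCompl h'⟩
  let e := Submodule.prodEquivOfIsCompl _ _ h'
  let φ : (Representation.prod U.toRepresentation W.toRepresentation).Equiv ρ :=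
    Representation.Equiv.mk e (fun g => by
      ext x
      · simp [e, Representation.prod, Submodule.coe_prodEquivOfIsCompl',
          Subrepresentation.toRepresentation]
      · simp [e, Representation.prod, Submodule.coe_prodEquivOfIsCompl',
          Subrepresentation.toRepresentation])
  rw [← Representation.char_iso φ]
  ext g
  simp only [Representation.character, Pi.add_apply]
  exact LinearMap.trace_prodMap' _ _

theorem isKChar_mem_closure [CharZero K] [Finite G] (n : ℕ) :
    ∀ (V : Type v) [AddCommGroup V] [Module K V] [FiniteDimensional K V]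
    (ρ : Representation K G V), Module.finrank K V = n →
    (fun g => algebraMap K ℂ (ρ.character g)) ∈ AddSubgroup.closure {χ : G → ℂ | IsKIrr K χ} := by
  induction n using Nat.strong_induction_on with
  | _ n ih =>
  intro V _ _ _ ρ hn
  by_cases htop : (⊤ : Subrepresentation ρ) = ⊥
  · have h0 : ∀ v : V, v = 0 := by
      intro v
      have : v ∈ (⊤ : Subrepresentation ρ) := trivial
      rw [htop] at this
      exact this
    have h1 : (fun g => algebraMap K ℂ (ρ.character g)) = 0 := by
      funext g
      have : ρ g = 0 := by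
        ext v
        exact h0 _
      simp [Representation.character, this]
    rw [h1]
    exact AddSubgroup.zero_mem _
  · obtain ⟨U, hU, -⟩ := exists_isAtomK ρ ⊤ htop
    haveI : NeZero (Nat.card G : K) := ⟨by exact_mod_cast Nat.card_pos.ne'⟩
    haveI : ρ.IsSemisimpleRepresentation := inferInstance
    obtain ⟨W, hW⟩ := exists_isCompl U
    obtain ⟨h1, h2⟩ := character_eq_add_of_isComplK ρ hW
    have h3 : (fun g => algebraMap K ℂ (ρ.character g)) =
        (fun g => algebraMap K ℂ (U.toRepresentation.character g)) +
        (fun g => algebraMap K ℂ (W.toRepresentation.character g)) := by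
      funext g
      rw [h1]
      simp
    rw [h3]
    have hpos : 0 < Module.finrank K U.toSubmodule := by
      rw [Nat.pos_iff_ne_zero]
      intro h
      apply hU.1
      apply Subrepresentation.toSubmodule_injective
      exact Submodule.finrank_eq_zero.mp h
    refine AddSubgroup.add_mem _ ?_ ?_
    · apply AddSubgroup.subset_closure
      exact isKIrr_of_rep _ (toRepresentation_isIrreducible_of_isAtomK U hU)
    · exact ih (Module.finrank K W.toSubmodule) (by omega) _ _ rfl

/-- Base change to `ℂ`. -/
noncomputable def baseC {n : ℕ} (σ : Representation K G (Fin n → K)) :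
    Representation ℂ G (Fin n → ℂ) where
  toFun g := Matrix.toLin' ((LinearMap.toMatrix' (σ g)).map (algebraMap K ℂ))
  map_one' := by
    rw [map_one]
    have : (LinearMap.toMatrix' (1 : (Fin n → K) →ₗ[K] (Fin n → K))) = 1 := LinearMap.toMatrix'_one
    rw [this, Matrix.map_one _ (map_zero _) (map_one _), Matrix.toLin'_one]
    rfl
  map_mul' a b := by
    rw [map_mul, LinearMap.toMatrix'_mul, Matrix.map_mul, Matrix.toLin'_mul]
    rfl

theorem baseC_matrix {n : ℕ} (σ : Representation K G (Fin n → K)) (g : G) :
    LinearMap.toMatrix' (baseC σ g) = (LinearMap.toMatrix' (σ g)).map (algebraMap K ℂ) := by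
  change LinearMap.toMatrix' (Matrix.toLin' _) = _
  rw [LinearMap.toMatrix'_toLin']

theorem baseC_character {n : ℕ} (σ : Representation K G (Fin n → K)) :
    (baseC σ).character = fun g => algebraMap K ℂ (σ.character g) := by
  funext g
  have h1 : (baseC σ).character g = Matrix.trace ((LinearMap.toMatrix' (σ g)).map (algebraMap K ℂ)) := by
    change LinearMap.trace ℂ _ (Matrix.toLin' _) = _
    rw [Matrix.trace_toLin'_eq]
  have h2 : σ.character g = Matrix.trace (LinearMap.toMatrix' (σ g)) := by
    rw [← Matrix.trace_toLin'_eq, Matrix.toLin'_toMatrix']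
    rfl
  rw [h1, h2, AddMonoidHom.map_trace]

theorem isCharacter_of_isKChar {χ : G → ℂ} (h : IsKChar K χ) : IsCharacter G χ := by
  obtain ⟨n, σ, rfl⟩ := h
  exact ⟨n, baseC σ, baseC_character σ⟩

theorem isKChar_of_isKIrr {χ : G → ℂ} (h : IsKIrr K χ) : IsKChar K χ := by
  obtain ⟨n, σ, -, h⟩ := h
  exact ⟨n, σ, h⟩

theorem isKChar_add {χ ψ : G → ℂ} (hχ : IsKChar K χ) (hψ : IsKChar K ψ) : IsKChar K (χ + ψ) := by
  obtain ⟨n, ρ, rfl⟩ := hχ
  obtain ⟨m, σ, rfl⟩ := hψ
  have h1 := isKChar_of_rep (K := K) (ρ.prod σ)
  have h2 : (fun g => algebraMap K ℂ ((ρ.prod σ).character g)) =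
      (fun g => algebraMap K ℂ (ρ.character g)) + fun g => algebraMap K ℂ (σ.character g) := by
    funext g
    have : (ρ.prod σ).character g = ρ.character g + σ.character g := LinearMap.trace_prodMap' _ _
    rw [this]
    simp
  rw [← h2]
  exact h1

theorem isKChar_zero : IsKChar K (0 : G → ℂ) := by
  refine ⟨0, 1, ?_⟩
  funext g
  simp [Representation.character]

theorem isKChar_nsmul {χ : G → ℂ} (hχ : IsKChar K χ) (n : ℕ) : IsKChar K (n • χ) := by
  induction n with
  | zero => rw [zero_nsmul]; exact isKChar_zero
  | succ n ih => rw [succ_nsmul]; exact isKChar_add ih hχ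

theorem isKChar_sum {ι : Type*} (s : Finset ι) (f : ι → G → ℂ) (h : ∀ i ∈ s, IsKChar K (f i)) :
    IsKChar K (∑ i ∈ s, f i) := by
  classical
  induction s using Finset.induction_on with
  | empty => rw [Finset.sum_empty]; exact isKChar_zero
  | insert a s ha ih =>
    rw [Finset.sum_insert ha]
    exact isKChar_add (h a (Finset.mem_insert_self a s))
      (ih (fun i hi => h i (Finset.mem_insert_of_mem hi)))

theorem classInner_isKIrr [CharZero K] [Fintype G] {n m : ℕ} (ρ : Representation K G (Fin n → K))
    (σ : Representation K G (Fin m → K)) :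
    classInner (fun g => algebraMap K ℂ (σ.character g)) (fun g => algebraMap K ℂ (ρ.character g)) =
      (Module.finrank K (Representation.IntertwiningMap ρ σ) : ℂ) := by
  let _ : Invertible (Nat.card G : K) := invertibleOfNonzero (by exact_mod_cast Nat.card_pos.ne')
  have h1 := Representation.card_inv_mul_sum_char_mul_char_eq_finrank ρ σ
  have h2 := congrArg (algebraMap K ℂ) h1
  rw [map_mul, map_inv₀, map_natCast, map_sum, map_natCast] at h2
  rw [← h2]
  unfold classInner
  congr 1
  refine Finset.sum_congr rfl (fun g _ => ?_)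
  rw [map_mul]
  congr 1
  have h3 : IsCharacter G (fun g => algebraMap K ℂ (ρ.character g)) :=
    isCharacter_of_isKChar ⟨n, ρ, rfl⟩
  exact (isCharacter_inv h3 g).symm

theorem classInner_isKIrr_self [CharZero K] [Fintype G] {s : G → ℂ} (hs : IsKIrr K s) :
    ∃ n : ℕ, 1 ≤ n ∧ classInner s s = n := by
  obtain ⟨n, ρ, hρ, rfl⟩ := hs
  refine ⟨_, ?_, classInner_isKIrr ρ ρ⟩
  rw [Nat.one_le_iff_ne_zero]
  intro h
  have h1 : Subsingleton (Representation.IntertwiningMap ρ ρ) := Module.finrank_zero_iff.mp h
  have h2 : (Representation.IntertwiningMap.id ρ) = 0 := Subsingleton.elim _ _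
  have h3 : Subsingleton (Fin n → K) := by
    constructor
    intro a b
    have ha : a = 0 := by
      have := congrArg (fun f : Representation.IntertwiningMap ρ ρ => f a) h2
      exact this
    have hb : b = 0 := by
      have := congrArg (fun f : Representation.IntertwiningMap ρ ρ => f b) h2
      exact this
    rw [ha, hb]
  have h4 : Nontrivial (Subrepresentation ρ) := hρ.toNontrivial
  obtain ⟨a, b, hab⟩ := h4
  apply hab
  apply Subrepresentation.toSubmodule_injective
  exact Subsingleton.elim _ _

theorem classInner_isKIrr_of_ne [CharZero K] [Fintype G] {s t : G → ℂ} (hs : IsKIrr K s)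
    (ht : IsKIrr K t) (hst : s ≠ t) : classInner s t = 0 := by
  obtain ⟨n, σ, hσ, rfl⟩ := hs
  obtain ⟨m, ρ, hρ, rfl⟩ := ht
  rw [classInner_isKIrr ρ σ]
  have : IsEmpty (Representation.Equiv ρ σ) := by
    constructor
    intro e
    apply hst
    rw [Representation.char_iso e]
  have h1 : Subsingleton (Representation.IntertwiningMap ρ σ) := inferInstance
  rw [Module.finrank_zero_of_subsingleton]
  simp

/-- The induced representation of a linear character over `K`. -/
def rightTranslK (G : Type u) [Group G] (K : Type) [Field K] :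
    Representation K G (G → K) where
  toFun g :=
    { toFun := fun f x => f (x * g)
      map_add' := fun _ _ => rfl
      map_smul' := fun _ _ => rfl }
  map_one' := by ext f x; simp
  map_mul' a b := by ext f x; simp [mul_assoc]

theorem rightTranslK_apply (g : G) (f : G → K) (x : G) :
    rightTranslK G K g f x = f (x * g) := rfl

/-- The space of the induced representation. -/
def indSubK (H : Subgroup G) (l : H →* K) : Subrepresentation (rightTranslK G K) where
  toSubmodule :=
    { carrier := {f | ∀ (h : H) (x : G), f (h * x) = l h * f x}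
      add_mem' := fun {a b} ha hb h x => by
        simp only [Pi.add_apply, ha h x, hb h x, mul_add]
      zero_mem' := fun h x => by simp
      smul_mem' := fun c a ha h x => by
        simp only [Pi.smul_apply, ha h x, smul_eq_mul]; ring }
  apply_mem_toSubmodule g f hf h x := by
    simp only [rightTranslK_apply]
    rw [mul_assoc]
    exact hf h (x * g)

theorem mem_indSubK (H : Subgroup G) (l : H →* K) {f : G → K} :
    f ∈ (indSubK H l).toSubmodule ↔ ∀ (h : H) (x : G), f (h * x) = l h * f x := Iff.rfl

/-- The average over `H`, followed by right translation by `g`. -/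
noncomputable def indProjK (H : Subgroup G) [Fintype H] (l : H →* K) (g : G) :
    (G → K) →ₗ[K] (G → K) where
  toFun f x := (Nat.card H : K)⁻¹ * ∑ h : H, l h * (f ((h : G)⁻¹ * (x * g)))
  map_add' a b := by ext x; simp [Finset.sum_add_distrib, mul_add]
  map_smul' c a := by
    ext x
    simp only [Pi.smul_apply, smul_eq_mul, RingHom.id_apply, Finset.mul_sum]
    refine Finset.sum_congr rfl (fun h _ => by ring)

theorem indProjK_apply (H : Subgroup G) [Fintype H] (l : H →* K) (g : G) (f : G → K) (x : G) :
    indProjK H l g f x = (Nat.card H : K)⁻¹ * ∑ h : H, l h * (f ((h : G)⁻¹ * (x * g))) := rfl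

theorem indProjK_mem (H : Subgroup G) [Fintype H] (l : H →* K) (g : G) (f : G → K) :
    indProjK H l g f ∈ (indSubK H l).toSubmodule := by
  rw [mem_indSubK]
  intro h x
  simp only [indProjK_apply]
  rw [mul_left_comm]
  congr 1
  rw [Finset.mul_sum]
  refine Fintype.sum_equiv (Equiv.mulLeft h⁻¹) _ _ fun k => ?_
  simp only [Equiv.coe_mulLeft]
  rw [← mul_assoc (l h), ← map_mul, mul_inv_cancel_left]
  congr 2
  push_cast
  group

theorem indProjK_of_mem [CharZero K] (H : Subgroup G) [Fintype H] (l : H →* K) (g : G) (f : G → K)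
    (hf : f ∈ (indSubK H l).toSubmodule) : indProjK H l g f = rightTranslK G K g f := by
  funext x
  rw [indProjK_apply, rightTranslK_apply]
  have : ∀ h : H, l h * (f ((h : G)⁻¹ * (x * g))) = f (x * g) := by
    intro h
    rw [← (mem_indSubK H l).mp hf h]
    congr 1
    group
  simp_rw [this]
  have h0 : (Nat.card H : K) ≠ 0 := by exact_mod_cast Nat.card_pos.ne'
  rw [Finset.sum_const, Finset.card_univ, ← Nat.card_eq_fintype_card, nsmul_eq_mul,
    ← mul_assoc, inv_mul_cancel₀ h0, one_mul]

theorem trace_indProjK [Fintype G] (H : Subgroup G) [Fintype H] (l : H →* K) (g : G) :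
    algebraMap K ℂ (LinearMap.trace K _ (indProjK H l g)) =
      indFun H (fun h => algebraMap K ℂ (l h)) g := by
  classical
  rw [LinearMap.trace_eq_matrix_trace K (Pi.basisFun K G)]
  unfold Matrix.trace
  rw [map_sum, indFun_apply', Finset.mul_sum]
  refine Finset.sum_congr rfl fun x _ => ?_
  rw [Matrix.diag_apply, LinearMap.toMatrix_apply]
  simp only [Pi.basisFun_apply, Pi.basisFun_repr]
  rw [indProjK_apply, map_mul, map_inv₀, map_natCast]
  congr 1
  rw [map_sum]
  by_cases hm : x * g * x⁻¹ ∈ H
  · rw [extendByZero_of_mem H _ hm]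
    rw [Finset.sum_eq_single ⟨x * g * x⁻¹, hm⟩]
    · have : (x * g * x⁻¹)⁻¹ * (x * g) = x := by group
      simp only [this, Pi.single_eq_same, mul_one]
    · intro b _ hb
      have : (b : G)⁻¹ * (x * g) ≠ x := by
        intro hc
        apply hb
        apply Subtype.ext
        rw [inv_mul_eq_iff_eq_mul] at hc
        change (b : G) = x * g * x⁻¹
        rw [hc]; group
      rw [Pi.single_eq_of_ne this, mul_zero, map_zero]
    · intro h; exact absurd (Finset.mem_univ _) h
  · rw [extendByZero_of_notMem H _ hm]
    refine Finset.sum_eq_zero fun h _ => ?_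
    have : (h : G)⁻¹ * (x * g) ≠ x := by
      intro hc
      apply hm
      rw [inv_mul_eq_iff_eq_mul] at hc
      rw [hc]
      simp
    rw [Pi.single_eq_of_ne this, mul_zero, map_zero]

theorem isKChar_indFun [CharZero K] [Fintype G] (H : Subgroup G) (l : H →* K) :
    IsKChar K (indFun H (fun h => algebraMap K ℂ (l h))) := by
  classical
  have : Fintype H := Fintype.ofFinite _
  have h1 := isKChar_of_rep (K := K) (indSubK H l).toRepresentation
  convert h1 using 1
  funext g
  rw [← trace_indProjK H l g]
  congr 1
  rw [← LinearMap.trace_restrict_eq_of_forall_mem (indSubK H l).toSubmodule (indProjK H l g)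
      (fun f => indProjK_mem H l g f)]
  unfold Representation.character
  congr 1
  ext f x
  exact (congrFun (indProjK_of_mem H l g f f.2) x)

end Field

section Main

open Cfsg.Agent.Char.RE

variable {K : Type} [Field K] [Algebra K ℂ] {G : Type u} [Group G]

/-- `K` contains the roots of unity of order `exponent G`. -/
def HasRoots (K : Type) [Field K] [Algebra K ℂ] (G : Type u) [Group G] : Prop :=
  ∀ z : ℂ, z ^ Monoid.exponent G = 1 → ∃ k : K, algebraMap K ℂ k = z

theorem linSpan_le_closure [CharZero K] [Fintype G] (hK : HasRoots K G) :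
    linSpan G ≤ AddSubgroup.closure {χ : G → ℂ | IsKIrr K χ} := by
  classical
  unfold linSpan
  rw [AddSubgroup.closure_le]
  rintro f ⟨E, p, l, hp, hE, rfl⟩
  have h1 : ∀ e : E, ∃ k : K, algebraMap K ℂ k = ((l e : ℂˣ) : ℂ) := by
    intro e
    apply hK
    have h2 : e ^ Monoid.exponent G = 1 := by
      have := Monoid.pow_exponent_eq_one (e : G)
      exact_mod_cast this
    rw [← Units.val_pow_eq_pow_val, ← map_pow, h2, map_one, Units.val_one]
  choose l' hl' using h1
  have hinj : Function.Injective (algebraMap K ℂ) := (algebraMap K ℂ).injective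
  let L : E →* K :=
    { toFun := l'
      map_one' := by
        apply hinj; rw [hl']; simp
      map_mul' := fun a b => by
        apply hinj; rw [map_mul, hl', hl', hl', map_mul, Units.val_mul] }
  have h2 : indFun E (fun e => ((l e : ℂˣ) : ℂ)) = indFun E (fun e => algebraMap K ℂ (L e)) := by
    congr 1
    funext e
    exact (hl' e).symm
  change indFun E (fun e => ((l e : ℂˣ) : ℂ)) ∈ _
  rw [h2]
  obtain ⟨n, σ, hσ⟩ := isKChar_indFun (K := K) E L
  rw [hσ]
  exact isKChar_mem_closure n _ σ (by simp)

theorem isKIrr_of_isIrr [CharZero K] [Fintype G] (hK : HasRoots K G) {χ : G → ℂ}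
    (hχ : IsIrrCharacter G χ) : IsKIrr K χ := by
  classical
  have hχ' := isCharacter_of_isIrr hχ
  have h1 := linSpan_le_closure hK (mem_linSpan hχ')
  have h2 : χ ∈ Submodule.span ℤ {χ : G → ℂ | IsKIrr K χ} := by
    rw [← Submodule.span_int_eq_addSubgroupClosure] at h1
    exact h1
  rw [Submodule.mem_span_set] at h2
  obtain ⟨c, hc, hsum⟩ := h2
  have hirr : ∀ s ∈ c.support, IsKIrr K s := fun s hs => hc hs
  rw [Finsupp.sum] at hsum
  have h3 : classInner χ χ = 1 := (isIrrCharacter_iff hχ').mp hχ
  have hself : ∀ s : G → ℂ, ∃ n : ℕ, s ∈ c.support → (1 ≤ n ∧ classInner s s = n) := by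
    intro s
    by_cases hs : s ∈ c.support
    · obtain ⟨n, hn⟩ := classInner_isKIrr_self (hirr s hs)
      exact ⟨n, fun _ => hn⟩
    · exact ⟨0, fun h => absurd h hs⟩
  choose n hn using hself
  have h4 : ∀ s ∈ c.support, classInner χ s = (c s : ℂ) * n s := by
    intro s hs
    rw [← hsum, classInner_sum_left]
    rw [Finset.sum_eq_single s]
    · have : (c s • s : G → ℂ) = (c s : ℂ) • s := by
        ext g; simp
      rw [this, classInner_smul_left, (hn s hs).2]
    · intro t ht hts
      have : (c t • t : G → ℂ) = (c t : ℂ) • t := by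
        ext g; simp
      rw [this, classInner_smul_left, classInner_isKIrr_of_ne (hirr t ht) (hirr s hs) hts, mul_zero]
    · intro h; exact absurd hs h
  have h5 : classInner χ χ = ∑ s ∈ c.support, (c s : ℂ) * ((c s : ℂ) * n s) := by
    have h51 : classInner χ χ = classInner (∑ a ∈ c.support, c a • a) χ := by rw [hsum]
    rw [h51, classInner_sum_left]
    refine Finset.sum_congr rfl (fun s hs => ?_)
    have : (c s • s : G → ℂ) = (c s : ℂ) • s := by
      ext g; simp
    rw [this, classInner_smul_left, classInner_conj_symm χ s, h4 s hs]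
    simp
  rw [h3] at h5
  have h6 : ∑ s ∈ c.support, (c s) * ((c s) * (n s : ℤ)) = 1 := by
    have : ((∑ s ∈ c.support, (c s) * ((c s) * (n s : ℤ)) : ℤ) : ℂ) = 1 := by
      rw [h5]; push_cast; rfl
    exact_mod_cast this
  have h7 : ∀ s ∈ c.support, 1 ≤ (c s) * ((c s) * (n s : ℤ)) := by
    intro s hs
    have h8 : c s ≠ 0 := Finsupp.mem_support_iff.mp hs
    have h9 : (1 : ℤ) ≤ n s := by exact_mod_cast (hn s hs).1
    have h10 : 0 < c s * c s := mul_self_pos.mpr h8
    nlinarith
  have h8 : (c.support.card : ℤ) ≤ 1 := by
    rw [← h6, Finset.card_eq_sum_ones]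
    push_cast
    exact Finset.sum_le_sum h7
  have h9 : c.support.Nonempty := by
    rw [Finset.nonempty_iff_ne_empty]
    intro h
    rw [h] at h6
    simp at h6
  obtain ⟨s, hs⟩ := Finset.card_eq_one.mp
    (le_antisymm (by exact_mod_cast h8) (Finset.card_pos.mpr h9))
  have hss : s ∈ c.support := by rw [hs]; exact Finset.mem_singleton_self s
  rw [hs, Finset.sum_singleton] at hsum h6
  have h10 : c s ∣ 1 := ⟨_, h6.symm⟩
  have h11 : 0 < c s := by
    obtain ⟨a, ha⟩ := exists_nat_degree hχ'
    obtain ⟨b, hb⟩ := exists_nat_degree (isCharacter_of_isKChar (isKChar_of_isKIrr (hirr s hss)))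
    have h12 : (c s : ℂ) * b = a := by
      rw [← hb, ← ha, ← hsum]
      simp
    have h13 : (c s : ℤ) * b = a := by exact_mod_cast h12
    have h14 : (a : ℂ) ≠ 0 := by rw [← ha]; exact irr_one_ne_zero hχ
    have h15 : (0 : ℤ) < a := by
      have : a ≠ 0 := by exact_mod_cast h14
      omega
    have h16 : (0 : ℤ) ≤ b := by positivity
    by_contra h
    push Not at h
    nlinarith
  have h12 : c s = 1 := Int.eq_one_of_dvd_one h11.le h10
  rw [h12, one_smul] at hsum
  rw [← hsum]
  exact hirr s hss

theorem isKChar_of_isCharacter [CharZero K] [Fintype G] (hK : HasRoots K G) {χ : G → ℂ}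
    (hχ : IsCharacter G χ) : IsKChar K χ := by
  classical
  have := Fintype.ofFinite (IrrCharacter G)
  obtain ⟨m, -, hsum⟩ := exists_mult_of_isCharacter hχ
  rw [hsum]
  exact isKChar_sum _ _ (fun ψ _ => isKChar_nsmul (isKChar_of_isKIrr (isKIrr_of_isIrr hK ψ.2)) _)

/-- **Brauer's splitting field theorem**. -/
theorem exists_realization [CharZero K] [Finite G] (hK : HasRoots K G) (n : ℕ)
    (ρ : Representation ℂ G (Fin n → ℂ)) : ∃ σ : Representation K G (Fin n → K),
      Nonempty (ρ.Equiv (baseC σ)) := by
  have := Fintype.ofFinite G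
  obtain ⟨m, σ, hσ⟩ := isKChar_of_isCharacter (K := K) hK ⟨n, ρ, rfl⟩
  have h1 : n = m := by
    have := congrFun hσ 1
    simp only [Representation.char_one] at this
    rw [Module.finrank_fin_fun, Module.finrank_fin_fun] at this
    simpa using this
  subst h1
  refine ⟨σ, equiv_of_character_eq ρ (baseC σ) ?_⟩
  rw [hσ, baseC_character]

end Main

end Cfsg.Agent.Char.SF
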